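import Mathlib
import Cfsg.Agent.H84.Shult.Arith
import Cfsg.Agent.H84.Shult.Period
import Cfsg.Agent.H84.FpfFour
import Cfsg.Agent.H20.HallHigmanBound
import Cfsg.Agent.H21.Fpf

/-! The irreducible faithful case of the Shult–Gross lemma. -/

set_option autoImplicit false

namespace Cfsg.Agent.H84.Shult

open Cfsg.Agent.H20.TB
open scoped commutatorElement

variable {k : Type*} [Field k] {Q : Type*} [Group Q] [Finite Q] {W : Type*} [AddCommGroup W]
  [Module k W]

theorem eq_of_smul_eq {V : Type*} [AddCommGroup V] [Module k V] {v : V} (hv : v ≠ 0) {a b : k}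
    (h : a • v = b • v) : a = b := smul_left_injective k hv h

set_option maxHeartbeats 1000000 in
/-- A fixed-point-free automorphism `σ` of order `p ^ (n + 1)`, `p` odd, of a `q`-group `Q` with a
faithful irreducible module without fixed vectors: `σ ^ p ^ n` is trivial on `Q`, provided it is
trivial on the proper invariant subgroups. -/
theorem core [IsAlgClosed k] [FiniteDimensional k W] [Nontrivial W] {p n q : ℕ} [Fact p.Prime]
    [Fact q.Prime] (hp2 : p ≠ 2) (hpk : (p : k) ≠ 0) (hqk : (q : k) ≠ 0) (hqp : q ≠ p)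
    (hQ : IsPGroup q Q) (σ : MulAut Q) (hσ : σ ^ p ^ (n + 1) = 1) (hfpf : ∀ y, σ y = y → y = 1)
    (ρ : Q →* Module.End k W) (hinj : Function.Injective ρ) (T : Module.End k W)
    (hT : T ^ p ^ (n + 1) = 1) (hsum : ∑ t ∈ Finset.range (p ^ (n + 1)), T ^ t = 0)
    (hc : ∀ y, T * ρ y = ρ (σ y) * T)
    (hirr : ∀ U : Submodule k W, (∀ y, ∀ w ∈ U, ρ y w ∈ U) → (∀ w ∈ U, T w ∈ U) → U = ⊥ ∨ U = ⊤)
    (hH : ∀ H : Subgroup Q, (∀ y ∈ H, σ y ∈ H) → H ≠ ⊤ → ∀ y ∈ H, (σ ^ p ^ n) y = y)
    (y₀ : Q) : (σ ^ p ^ n) y₀ = y₀ := by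
  classical
  have hp := (Fact.out : p.Prime)
  set τ := σ ^ p ^ n with hτdef
  by_contra hy₀
  have hstab : ∀ y, σ (τ y) = τ (σ y) := fun y => by
    rw [hτdef, ← MulAut.mul_apply, ← MulAut.mul_apply, ← pow_succ', ← pow_succ]
  -- `Q` is generated by the displacements of `τ`
  set D := Subgroup.closure (Set.range fun y : Q => y⁻¹ * τ y) with hD
  have hDσ : ∀ y ∈ D, σ y ∈ D := by
    intro y hy
    have hle : D ≤ D.comap (σ : Q →* Q) := by
      rw [hD, Subgroup.closure_le]
      rintro _ ⟨x, rfl⟩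
      refine Subgroup.subset_closure ⟨σ x, ?_⟩
      show (σ x)⁻¹ * τ (σ x) = σ (x⁻¹ * τ x)
      rw [map_mul, map_inv, hstab]
    exact hle hy
  have hgen : D = ⊤ := by
    by_contra hne
    set z := y₀⁻¹ * τ y₀ with hz
    have hzfix : τ z = z := hH D hDσ hne z (Subgroup.subset_closure ⟨y₀, rfl⟩)
    have hpow : ∀ i, (τ ^ i) y₀ = y₀ * z ^ i := by
      intro i
      induction i with
      | zero => simp
      | succ i ih =>
        rw [pow_succ', MulAut.mul_apply, ih, map_mul, map_pow, hzfix, pow_succ', ← mul_assoc,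
          show τ y₀ = y₀ * z by rw [hz, mul_inv_cancel_left]]
    have h1 := hpow p
    rw [hτdef, ← pow_mul, ← pow_succ, hσ, MulAut.one_apply] at h1
    have hzp : z ^ p = 1 := by simpa using h1.symm
    obtain ⟨a, ha⟩ := hQ z
    have hz1 : z = 1 := orderOf_eq_one_iff.1 (Nat.eq_one_of_dvd_coprimes
      (((Nat.coprime_primes hp Fact.out).2 (Ne.symm hqp)).pow_right a)
      (orderOf_dvd_of_pow_eq_one hzp) (orderOf_dvd_of_pow_eq_one ha))
    exact hy₀ (inv_mul_eq_one.1 hz1).symm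
  haveI : Nontrivial Q := ⟨⟨y₀, 1, fun h => hy₀ (by rw [h, map_one])⟩⟩
  haveI : Group.IsNilpotent Q := hQ.isNilpotent
  have hcomZ : ∀ a b : Q, ⁅a, b⁆ ∈ Subgroup.center Q := by
    have hσc : ∀ c ∈ commutator Q, σ c ∈ commutator Q := fun c hc =>
      Subgroup.characteristic_iff_map_le.1 inferInstance σ ⟨c, hc, rfl⟩
    have hfix : ∀ c ∈ commutator Q, τ c = c :=
      hH _ hσc (Group.IsSolvable.commutator_lt_top_of_nontrivial Q).ne
    intro a b
    set c := ⁅a, b⁆ with hcdef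
    have hcmem : c ∈ commutator Q :=
      Subgroup.commutator_mem_commutator (Subgroup.mem_top a) (Subgroup.mem_top b)
    have hle : D ≤ Subgroup.centralizer ({c} : Set Q) := by
      rw [hD, Subgroup.closure_le]
      rintro _ ⟨y, rfl⟩
      rw [SetLike.mem_coe, Subgroup.mem_centralizer_singleton_iff]
      have hn : (commutator Q).Normal := inferInstance
      have h1 := hfix _ (hn.conj_mem c hcmem y)
      rw [map_mul, map_mul, map_inv, hfix c hcmem] at h1
      show y⁻¹ * τ y * c = c * (y⁻¹ * τ y)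
      calc y⁻¹ * τ y * c = y⁻¹ * (τ y * c * (τ y)⁻¹) * τ y := by group
        _ = c * (y⁻¹ * τ y) := by rw [h1]; group
    exact Subgroup.mem_center_iff.2 fun g =>
      Subgroup.mem_centralizer_singleton_iff.1 (hle (hgen ▸ Subgroup.mem_top g))
  set Z := Subgroup.center Q with hZdef
  have hZσ : ∀ z ∈ Z, σ z ∈ Z := fun z hz =>
    Subgroup.characteristic_iff_map_le.1 inferInstance σ ⟨z, hz, rfl⟩
  obtain ⟨sZ, hsZ⟩ := exists_restrict σ Z hZσ
  have hsZp := restrict_pow_apply σ sZ hsZ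
  -- the displacement map on `Q / Z`
  letI : CommGroup (Q ⧸ Z) :=
    { (inferInstance : Group (Q ⧸ Z)) with
      mul_comm := fun a b => by
        induction a using QuotientGroup.induction_on with
        | _ a =>
          induction b using QuotientGroup.induction_on with
          | _ b =>
            rw [← QuotientGroup.mk_mul, ← QuotientGroup.mk_mul, QuotientGroup.eq]
            have h := hcomZ b⁻¹ a⁻¹
            simpa [commutatorElement_def, mul_assoc] using h }
  let f : Q →* Q ⧸ Z := MonoidHom.mk' (fun y => (QuotientGroup.mk' Z y)⁻¹ * QuotientGroup.mk' Z (τ y))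
    (fun a b => by simp only [map_mul]; rw [mul_inv, mul_mul_mul_comm])
  have hfZ : Z ≤ f.ker := fun z hz => by
    show (QuotientGroup.mk' Z z)⁻¹ * QuotientGroup.mk' Z (τ z) = 1
    have h2 : τ z ∈ Z := by rw [hτdef, ← hsZp (p ^ n) ⟨z, hz⟩]; exact SetLike.coe_mem _
    rw [show QuotientGroup.mk' Z z = 1 from (QuotientGroup.eq_one_iff z).2 hz,
      show QuotientGroup.mk' Z (τ z) = 1 from (QuotientGroup.eq_one_iff _).2 h2, inv_one, one_mul]
  let fb : Q ⧸ Z →* Q ⧸ Z := QuotientGroup.lift Z f hfZ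
  have hfbs : Function.Surjective fb := by
    intro v
    obtain ⟨y, rfl⟩ := QuotientGroup.mk'_surjective Z v
    have hle : D ≤ fb.range.comap (QuotientGroup.mk' Z) := by
      rw [hD, Subgroup.closure_le]
      rintro _ ⟨x, rfl⟩
      exact ⟨(x : Q ⧸ Z), by simp [fb, f]⟩
    exact hle (hgen ▸ Subgroup.mem_top y)
  have hfbi : Function.Injective fb := Finite.injective_iff_surjective.2 hfbs
  have hfb : ∀ y : Q, fb (y : Q ⧸ Z) = ((y⁻¹ * τ y : Q) : Q ⧸ Z) := fun y => by
    simp [fb, f]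
  have hA : ∀ y, y⁻¹ * τ y ∈ Z → y ∈ Z := fun y hy => by
    rw [← QuotientGroup.eq_one_iff]
    exact hfbi (by rw [hfb, map_one]; exact (QuotientGroup.eq_one_iff _).2 hy)
  -- a weight of the centre and its period
  obtain ⟨χ, hχ⟩ := exists_weight (fun z : Z => ρ (z : Q)) (fun a b => by
    rw [← map_mul, ← map_mul, Subgroup.mem_center_iff.1 b.2])
  obtain ⟨w₀, hw₀', hw₀ne⟩ := Submodule.exists_mem_ne_zero_of_ne_bot hχ
  have hw₀ : ∀ z : Z, ρ (z : Q) w₀ = χ z • w₀ := hw₀'
  have hperm : ∀ (a : ℕ) (z : Z), ((MulAut.toPerm Z sZ) ^ a) z = (sZ ^ a) z := fun a z => by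
    rw [← map_pow]; rfl
  obtain ⟨j, hjn, hχj, hχτ, hvan, hVT⟩ := exists_period (fun z : Z => ρ (z : Q))
    (MulAut.toPerm Z sZ) T hsum (fun z => by
      show T * ρ (z : Q) = ρ ((sZ z : Z) : Q) * T
      rw [hsZ, hc])
    (Equiv.ext fun z => by
      rw [hperm, Equiv.Perm.one_apply]
      exact Subtype.ext (by rw [hsZp, hσ]; rfl)) χ hχ
  simp only [hperm, Nat.add_sub_cancel] at hχτ hχj
  have hχmul : ∀ a b : Z, χ (a * b) = χ a * χ b := fun a b => eq_of_smul_eq hw₀ne (by
    rw [← hw₀ (a * b), Subgroup.coe_mul, map_mul, Module.End.mul_apply, hw₀ b, map_smul, hw₀ a,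
      smul_smul, mul_comm])
  have hχ1 : χ 1 = 1 := eq_of_smul_eq hw₀ne (by
    rw [← hw₀ 1, Subgroup.coe_one, map_one, one_smul]; rfl)
  have hTpow : ∀ (a : ℕ) (y : Q), T ^ a * ρ y = ρ ((σ ^ a) y) * T ^ a := by
    intro a
    induction a with
    | zero => intro y; simp
    | succ a ih =>
      intro y
      rw [pow_succ', mul_assoc, ih, ← mul_assoc, hc, mul_assoc, pow_succ', MulAut.mul_apply]
  have hfaith : ∀ z : Z, (∀ a, χ ((sZ ^ a) z) = 1) → z = 1 := by
    intro z hz
    let U : Submodule k W :=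
      { carrier := {w | ∀ a, ρ ((σ ^ a) (z : Q)) w = w}
        zero_mem' := fun a => map_zero _
        add_mem' := fun {u v} hu hv a => by rw [map_add, hu a, hv a]
        smul_mem' := fun c u hu a => by rw [map_smul, hu a] }
    have hU : U = ⊥ ∨ U = ⊤ := by
      refine hirr U (fun y w hw a => ?_) (fun w hw a => ?_)
      · have hzc : y * (σ ^ a) (z : Q) = (σ ^ a) (z : Q) * y := by
          rw [← hsZp]; exact Subgroup.mem_center_iff.1 ((sZ ^ a) z).2 y
        rw [← Module.End.mul_apply, ← map_mul, ← hzc, map_mul, Module.End.mul_apply, hw a]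
      · set b := a + p ^ (n + 1) - 1 with hb
        have h1 : (σ ^ a) (z : Q) = σ ((σ ^ b) (z : Q)) := by
          rw [← MulAut.mul_apply, ← pow_succ', hb,
            show a + p ^ (n + 1) - 1 + 1 = a + p ^ (n + 1) by
              have := Nat.one_le_pow (n + 1) p hp.pos; omega,
            pow_add, hσ, mul_one]
        rw [h1, ← Module.End.mul_apply, ← hc, Module.End.mul_apply, hw b]
    have hUne : U ≠ ⊥ := fun h => hw₀ne ((Submodule.mem_bot k).1 (h ▸ (fun a => by
      have h2 := hw₀ ((sZ ^ a) z)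
      simp only [hsZp] at h2
      rw [h2, hz a, one_smul] : w₀ ∈ U)))
    have htop := hU.resolve_left hUne
    refine Subtype.ext (hinj (LinearMap.ext fun w => ?_))
    have hw : w ∈ U := htop ▸ Submodule.mem_top
    rw [OneMemClass.coe_one, map_one]
    simpa using hw 0
  have hτZ : ∀ z : Z, (sZ ^ p ^ n) z = z := by
    intro z
    rw [← mul_inv_eq_one]
    refine hfaith _ fun a => ?_
    rw [map_mul, map_inv, ← MulAut.mul_apply, ← pow_add, add_comm, pow_add, MulAut.mul_apply,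
      hχmul, hχτ, ← hχmul, mul_inv_cancel, hχ1]
  have hZtop : Z ≠ ⊤ := fun h => hy₀ (by
    have := congrArg Subtype.val (hτZ ⟨y₀, h ▸ Subgroup.mem_top y₀⟩)
    rwa [hsZp] at this)
  -- commutator pairing
  let cz : Q → Q → Z := fun a b => ⟨⁅a, b⁆, hcomZ a b⟩
  have hczl : ∀ a b x, cz (a * b) x = cz a x * cz b x := fun a b x => Subtype.ext (by
    show ⁅a * b, x⁆ = ⁅a, x⁆ * ⁅b, x⁆
    have h1 := Subgroup.mem_center_iff.1 (hcomZ b x)
    calc ⁅a * b, x⁆ = a * ⁅b, x⁆ * a⁻¹ * ⁅a, x⁆ := by simp only [commutatorElement_def]; group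
      _ = ⁅a, x⁆ * ⁅b, x⁆ := by rw [h1 a, mul_inv_cancel_right, h1])
  have hczσ : ∀ (a : ℕ) x y, cz ((σ ^ a) x) ((σ ^ a) y) = (sZ ^ a) (cz x y) := fun a x y =>
    Subtype.ext (by
      rw [hsZp]
      show ⁅(σ ^ a) x, (σ ^ a) y⁆ = (σ ^ a) ⁅x, y⁆
      rw [map_commutatorElement])
  let R : Subgroup Q :=
    { carrier := {y | ∀ x, χ (cz y x) = 1}
      one_mem' := fun x => by
        rw [show cz 1 x = 1 from Subtype.ext (commutatorElement_one_left x), hχ1]
      mul_mem' := fun {a b} ha hb x => by rw [hczl, hχmul, ha x, hb x, mul_one]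
      inv_mem' := fun {a} ha x => by
        have h := hczl a⁻¹ a x
        rw [inv_mul_cancel, show cz 1 x = 1 from Subtype.ext (commutatorElement_one_left x)] at h
        have h2 := congrArg χ h
        rw [hχ1, hχmul, ha x, mul_one] at h2
        exact h2.symm }
  have hZR : Z ≤ R := fun z hz x => by
    rw [show cz z x = 1 from Subtype.ext (commutatorElement_eq_one_iff_mul_comm.2
      (Subgroup.mem_center_iff.1 hz x).symm), hχ1]
  haveI hRn : R.Normal := ⟨fun r hr g => by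
    have h : ⁅g, r⁆ * r ∈ R := mul_mem (hZR (hcomZ g r)) hr
    simpa [commutatorElement_def] using h⟩
  set σ' := σ ^ p ^ j with hσ'
  have hRσ : ∀ y ∈ R, σ' y ∈ R := fun y hy x => by
    obtain ⟨x', rfl⟩ := σ'.surjective x
    rw [hσ', hczσ, hχj, hy x']
  have hRtop : R ≠ ⊤ := fun h => hZtop ((Subgroup.eq_top_iff' _).2 fun y =>
    Subgroup.mem_center_iff.2 fun x => (commutatorElement_eq_one_iff_mul_comm.1
      (congrArg Subtype.val (hfaith (cz y x) fun a => by
        rw [← hczσ]; exact (h ▸ Subgroup.mem_top _ : (σ ^ a) y ∈ R) _))).symm)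
  obtain ⟨sR, hsR⟩ := exists_restrict σ' R hRσ
  have hsRp := restrict_pow_apply σ' sR hsR
  have hσ'N : σ' ^ p ^ (n + 1 - j) = 1 := by
    rw [hσ', ← pow_mul, ← pow_add, show j + (n + 1 - j) = n + 1 by omega, hσ]
  have hσ'τ : σ' ^ p ^ (n - j) = τ := by
    rw [hσ', ← pow_mul, ← pow_add, show j + (n - j) = n by omega]
  have hRτ : ∀ r ∈ R, τ r ∈ R := fun r hr => by
    rw [← hσ'τ, ← hsRp _ ⟨r, hr⟩]; exact SetLike.coe_mem _
  -- `R = Z · {r⁻¹ τ r : r ∈ R}`
  have hdec : ∀ r ∈ R, ∃ r' ∈ R, ∃ z : Z, r = r'⁻¹ * τ r' * z := by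
    intro r hr
    set Rb := R.map (QuotientGroup.mk' Z)
    have hmaps : ∀ v : Rb, fb v ∈ Rb := by
      rintro ⟨_, x, hx, rfl⟩
      exact ⟨x⁻¹ * τ x, mul_mem (inv_mem hx) (hRτ x hx), (hfb x).symm⟩
    have hs : Function.Surjective (fun v : Rb => (⟨fb v, hmaps v⟩ : Rb)) :=
      Finite.surjective_of_injective fun a b h => Subtype.ext (hfbi (congrArg Subtype.val h))
    obtain ⟨⟨_, x, hx, rfl⟩, hxe⟩ := hs ⟨(r : Q ⧸ Z), r, hr, rfl⟩
    have h1 : fb (x : Q ⧸ Z) = (r : Q ⧸ Z) := congrArg Subtype.val hxe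
    rw [hfb, QuotientGroup.eq] at h1
    exact ⟨x, hx, ⟨_, h1⟩, by group⟩
  -- operators on the weight space of `χ`
  set V := weight (fun z : Z => ρ (z : Q)) χ with hV
  have hVρ : ∀ y, ∀ v ∈ V, ρ y v ∈ V := fun y v hv z => by
    show ρ (z : Q) (ρ y v) = χ z • ρ y v
    rw [← Module.End.mul_apply, ← map_mul, ← Subgroup.mem_center_iff.1 z.2 y, map_mul,
      Module.End.mul_apply, hv z, map_smul]
  haveI : Nontrivial V := Submodule.nontrivial_iff_ne_bot.2 hχ
  have hcommR : ∀ r ∈ R, ∀ x : Q, ∀ v ∈ V, ρ r (ρ x v) = ρ x (ρ r v) := by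
    intro r hr x v hv
    have h1 : r * x = (cz r x : Q) * (x * r) := by
      show r * x = ⁅r, x⁆ * (x * r)
      simp only [commutatorElement_def]; group
    rw [← Module.End.mul_apply, ← map_mul, h1, map_mul, Module.End.mul_apply,
      show ρ (cz r x : Q) (ρ (x * r) v) = χ (cz r x) • ρ (x * r) v from hVρ _ v hv (cz r x), hr x, one_smul, map_mul,
      Module.End.mul_apply]
  let S : Module.End k V := (T ^ p ^ j).restrict hVT
  let ρR : R → Module.End k V := fun r => (ρ (r : Q)).restrict (hVρ _)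
  obtain ⟨ψ, hψ⟩ := exists_weight ρR (fun a b => LinearMap.ext fun v =>
    Subtype.ext (hcommR a a.2 b v v.2))
  have hSpow : ∀ (b : ℕ) (v : V), (((S ^ b) v : V) : W) = ((T ^ p ^ j) ^ b) (v : W) := by
    intro b
    induction b with
    | zero => intro v; rfl
    | succ b ih =>
      intro v
      rw [pow_succ', pow_succ', Module.End.mul_apply, Module.End.mul_apply, ← ih]
      rfl
  have hSsum : ∑ b ∈ Finset.range (p ^ (n + 1 - j)), S ^ b = 0 := LinearMap.ext fun v =>
    Subtype.ext (by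
      rw [LinearMap.sum_apply, AddSubmonoidClass.coe_finset_sum]
      simp only [hSpow]
      exact hvan v v.2)
  have hpermR : ∀ (a : ℕ) (r : R), ((MulAut.toPerm R sR) ^ a) r = (sR ^ a) r := fun a r => by
    rw [← map_pow]; rfl
  obtain ⟨i, -, -, hψτ, -, -⟩ := exists_period ρR (MulAut.toPerm R sR) S hSsum
    (fun r => LinearMap.ext fun v => Subtype.ext (by
      show (T ^ p ^ j) (ρ (r : Q) (v : W)) = ρ ((sR r : R) : Q) ((T ^ p ^ j) (v : W))
      rw [← Module.End.mul_apply, hTpow, hsR]; rfl))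
    (Equiv.ext fun r => by
      rw [hpermR, Equiv.Perm.one_apply]
      exact Subtype.ext (by rw [hsRp, hσ'N]; rfl)) ψ hψ
  simp only [hpermR, show n + 1 - j - 1 = n - j by omega] at hψτ
  obtain ⟨v₀, hv₀', hv₀ne⟩ := Submodule.exists_mem_ne_zero_of_ne_bot hψ
  have hv₀ : ∀ r : R, ρR r v₀ = ψ r • v₀ := hv₀'
  have hψmul : ∀ a b : R, ψ (a * b) = ψ a * ψ b := fun a b => eq_of_smul_eq hv₀ne (by
    rw [← hv₀ (a * b), show ρR (a * b) v₀ = ρR a (ρR b v₀) from Subtype.ext (by
      show ρ ((a : Q) * b) (v₀ : W) = _; rw [map_mul]; rfl),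
      hv₀ b, map_smul, hv₀ a, smul_smul, mul_comm])
  have hψZ : ∀ z : Z, ψ ⟨z, hZR z.2⟩ = χ z := fun z => eq_of_smul_eq hv₀ne (by
    rw [← hv₀]; exact Subtype.ext ((v₀.2 : (v₀ : W) ∈ V) z))
  have hψ1 : ψ 1 = 1 := by
    have := hψZ 1
    rw [hχ1] at this
    exact this
  have hψdisp : ∀ r : R, ψ (r⁻¹ * (sR ^ p ^ (n - j)) r) = 1 := fun r => by
    rw [hψmul, hψτ, ← hψmul, inv_mul_cancel, hψ1]
  have hψS : ∀ r : R, ψ (sR r) = ψ r := by
    intro r
    obtain ⟨r', hr', z, hz⟩ := hdec r r.2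
    have e1 : r = (⟨r', hr'⟩⁻¹ * (sR ^ p ^ (n - j)) ⟨r', hr'⟩) * ⟨(z : Q), hZR z.2⟩ :=
      Subtype.ext (by
        rw [Subgroup.coe_mul, Subgroup.coe_mul, hsRp, hσ'τ]; exact hz)
    have e2 : sR ⟨(z : Q), hZR z.2⟩ = ⟨(((sZ ^ p ^ j) z : Z) : Q), hZR ((sZ ^ p ^ j) z).2⟩ :=
      Subtype.ext (by rw [hsR, hσ', hsZp])
    rw [e1, map_mul, map_mul, map_inv, hψmul,
      show sR ((sR ^ p ^ (n - j)) ⟨r', hr'⟩) = (sR ^ p ^ (n - j)) (sR ⟨r', hr'⟩) by
        rw [← MulAut.mul_apply, ← MulAut.mul_apply, ← pow_succ', ← pow_succ],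
      hψdisp, e2, hψZ, hψmul, hψdisp, hψZ, hχj]
  set W1 := weight ρR ψ with hW1
  haveI : Nontrivial W1 := Submodule.nontrivial_iff_ne_bot.2 hψ
  have hW1ρ : ∀ y, ∀ v ∈ W1, (ρ y).restrict (hVρ y) v ∈ W1 := fun y v hv r => by
    refine Subtype.ext ((hcommR r r.2 y v v.2).trans ?_)
    rw [show ρ (r : Q) (v : W) = ψ r • (v : W) from congrArg Subtype.val (hv r), map_smul]
    rfl
  have hW1S : ∀ v ∈ W1, S v ∈ W1 := fun v hv r => by
    obtain ⟨r', rfl⟩ := sR.surjective r
    have h1 : ρR (sR r') (S v) = S (ρR r' v) := Subtype.ext (by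
      show ρ ((sR r' : R) : Q) ((T ^ p ^ j) (v : W)) = (T ^ p ^ j) (ρ (r' : Q) (v : W))
      rw [hsR, ← Module.End.mul_apply (f := T ^ p ^ j), hTpow]; rfl)
    rw [h1, hv r', map_smul, hψS]
  let ρ1 : Q →* Module.End k W1 :=
    { toFun := fun y => ((ρ y).restrict (hVρ y)).restrict (hW1ρ y)
      map_one' := LinearMap.ext fun v => Subtype.ext (Subtype.ext (by
        show ρ 1 ((v : V) : W) = _; rw [map_one]; rfl))
      map_mul' := fun a b => LinearMap.ext fun v => Subtype.ext (Subtype.ext (by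
        show ρ (a * b) ((v : V) : W) = _; rw [map_mul]; rfl)) }
  have hρ1R : ∀ r : R, ρ1 (r : Q) = ψ r • 1 := fun r =>
    LinearMap.ext fun v => Subtype.ext ((v.2 : (v : V) ∈ W1) r)
  let S1 : Module.End k W1 := S.restrict hW1S
  have hS1pow : ∀ (b : ℕ) (v : W1), (((S1 ^ b) v : W1) : V) = (S ^ b) (v : V) := by
    intro b
    induction b with
    | zero => intro v; rfl
    | succ b ih =>
      intro v
      rw [pow_succ', pow_succ', Module.End.mul_apply, Module.End.mul_apply, ← ih]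
      rfl
  set M := p ^ (n + 1 - j) with hMdef
  have hMpos : 0 < M := pow_pos hp.pos _
  have hS1M : S1 ^ M = 1 := LinearMap.ext fun v => Subtype.ext (Subtype.ext (by
    rw [hS1pow, hSpow, ← pow_mul, hMdef, ← pow_add, show j + (n + 1 - j) = n + 1 by omega, hT]
    rfl))
  have hS1sum : ∑ b ∈ Finset.range M, S1 ^ b = 0 := LinearMap.ext fun v => Subtype.ext (by
    rw [LinearMap.sum_apply, AddSubmonoidClass.coe_finset_sum]
    simp only [hS1pow]
    rw [← LinearMap.sum_apply, hMdef, hSsum]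
    rfl)
  let u : (Module.End k W1)ˣ := Units.ofPowEqOne S1 M hS1M hMpos.ne'
  -- the projective family
  set TT := Q ⧸ R with hTT
  letI : CommGroup TT :=
    { (inferInstance : Group (Q ⧸ R)) with
      mul_comm := fun a b => by
        induction a using QuotientGroup.induction_on with
        | _ a =>
          induction b using QuotientGroup.induction_on with
          | _ b =>
            rw [← QuotientGroup.mk_mul, ← QuotientGroup.mk_mul, QuotientGroup.eq]
            have h := hZR (hcomZ b⁻¹ a⁻¹)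
            simpa [commutatorElement_def, mul_assoc] using h }
  haveI : Fintype TT := Fintype.ofFinite _
  let u1 : Q →* (Module.End k W1)ˣ := ρ1.toHomUnits
  let fam : TT → (Module.End k W1)ˣ := fun t => u1 (Quotient.out t)
  have hfam : ∀ y : Q, ∃ c : k, ρ1 y = c • (fam (y : TT) : Module.End k W1) := by
    intro y
    obtain ⟨r, hr⟩ := QuotientGroup.mk_out_eq_mul R y
    refine ⟨ψ r⁻¹, ?_⟩
    show ρ1 y = ψ r⁻¹ • ρ1 (Quotient.out (y : TT))
    conv_lhs => rw [show y = Quotient.out (y : TT) * ((r⁻¹ : R) : Q) by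
      rw [hr, Subgroup.coe_inv, mul_inv_cancel_right]]
    rw [map_mul, hρ1R, mul_smul_comm, mul_one]
  have hproj : H20.HH.IsProjective fam := fun a b => by
    obtain ⟨c, hc'⟩ := hfam (Quotient.out a * Quotient.out b)
    refine ⟨c, ?_⟩
    rw [QuotientGroup.mk_mul, QuotientGroup.out_eq', QuotientGroup.out_eq', map_mul] at hc'
    exact hc'
  have hnd : H20.HH.IsNondeg fam := by
    intro t ht
    have hout : Quotient.out t ∉ R := fun h => ht (by
      rw [← QuotientGroup.out_eq' t]; exact (QuotientGroup.eq_one_iff _).2 h)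
    obtain ⟨x, hx⟩ : ∃ x, χ (cz (Quotient.out t) x) ≠ 1 := by
      by_contra hcon
      push Not at hcon
      exact hout hcon
    refine ⟨(x : TT), fun hcomm => hx ?_⟩
    obtain ⟨c, hc'⟩ := hfam x
    have h1 : ρ1 (Quotient.out t * x) = ρ1 (x * Quotient.out t) := by
      rw [map_mul, map_mul, hc', mul_smul_comm, smul_mul_assoc,
        show ρ1 (Quotient.out t) = (fam t : Module.End k W1) from rfl, hcomm]
    rw [show Quotient.out t * x = (cz (Quotient.out t) x : Q) * (x * Quotient.out t) by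
      show _ = ⁅_, _⁆ * _; simp only [commutatorElement_def]; group, map_mul] at h1
    obtain ⟨v, hv⟩ := exists_ne (0 : W1)
    have hinvU := (Group.isUnit (x * Quotient.out t)).map ρ1
    have h2 : ρ1 (cz (Quotient.out t) x : Q) = 1 := hinvU.mul_right_cancel (h1.trans (one_mul _).symm)
    rw [show ρ1 (cz (Quotient.out t) x : Q) = ψ ⟨(cz (Quotient.out t) x : Q), hZR (Subtype.prop _)⟩ • 1
      from hρ1R ⟨(cz (Quotient.out t) x : Q), hZR (Subtype.prop _)⟩, hψZ] at h2
    have h3 := LinearMap.congr_fun h2 v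
    rw [LinearMap.smul_apply, Module.End.one_apply] at h3
    exact eq_of_smul_eq hv (h3.trans (one_smul k v).symm)
  have hmap : R.map (σ' : Q →* Q) = R :=
    Subgroup.eq_of_le_of_card_ge (by rintro _ ⟨y, hy, rfl⟩; exact hRσ y hy)
      (by rw [Subgroup.card_map_of_injective σ'.injective])
  let sT : TT ≃* TT := QuotientGroup.congr R R σ' hmap
  have hlast : ∀ t : TT, ((sT : MulAut TT) ^ p ^ (n + 1 - j - 1)) t = t → t = 1 := by
    intro t
    induction t using QuotientGroup.induction_on with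
    | _ y =>
      intro h
      rw [congr_pow_apply σ' hmap, show n + 1 - j - 1 = n - j by omega, hσ'τ, eq_comm,
        QuotientGroup.eq] at h
      obtain ⟨r', hr', z, hz⟩ := hdec _ h
      rw [QuotientGroup.eq_one_iff]
      have h4 : fb ((y * r'⁻¹ : Q) : Q ⧸ Z) = 1 := by
        rw [QuotientGroup.mk_mul, QuotientGroup.mk_inv, map_mul, map_inv, hfb, hfb, hz]
        show QuotientGroup.mk' Z (r'⁻¹ * τ r' * z) * (QuotientGroup.mk' Z (r'⁻¹ * τ r'))⁻¹ = 1
        rw [map_mul _ (r'⁻¹ * τ r'),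
          show QuotientGroup.mk' Z (z : Q) = 1 from (QuotientGroup.eq_one_iff _).2 z.2, mul_one,
          mul_inv_cancel]
      have h5 : y * r'⁻¹ ∈ Z := by
        rw [← QuotientGroup.eq_one_iff]; exact hfbi (h4.trans (map_one fb).symm)
      simpa using mul_mem (hZR h5) hr'
  have hsTN : (sT : MulAut TT) ^ M = 1 := MulEquiv.ext fun t => by
    induction t using QuotientGroup.induction_on with
    | _ y => rw [congr_pow_apply σ' hmap, hMdef, hσ'N]; rfl
  have hiter : ∀ (b : ℕ) (t : TT), (⇑sT)^[b] t = ((sT : MulAut TT) ^ b) t := fun b t =>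
    (H21.aut_pow_apply (sT : MulAut TT) b t).symm
  have hfreeT := free_of_last (sT : MulAut TT) hsTN hlast
  obtain ⟨a, ha⟩ := IsPGroup.iff_card.1 (hQ.to_quotient R)
  have hTcard : Fintype.card TT = q ^ a := by rw [← Nat.card_eq_fintype_card]; exact ha
  have hTk : (Fintype.card TT : k) ≠ 0 := by
    rw [hTcard, Nat.cast_pow]; exact pow_ne_zero a hqk
  have hMk : (M : k) ≠ 0 := by rw [hMdef, Nat.cast_pow]; exact pow_ne_zero _ hpk
  have hbound := H20.HH.card_le_sq hproj hnd hTk hMpos hMk u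
    (Units.pow_ofPowEqOne hS1M hMpos.ne') hS1sum sT
    (fun t => by
      obtain ⟨c, hc'⟩ := hfam (σ' (Quotient.out t))
      refine ⟨c, ?_⟩
      have e : ((σ' (Quotient.out t) : Q) : TT) = sT t := by
        conv_rhs => rw [← QuotientGroup.out_eq' t]
        rfl
      rw [e] at hc'
      rw [← hc']
      show S1 * ρ1 (Quotient.out t) * (u⁻¹ : (Module.End k W1)ˣ).val = ρ1 (σ' (Quotient.out t))
      rw [show S1 * ρ1 (Quotient.out t) = ρ1 (σ' (Quotient.out t)) * S1 from
        LinearMap.ext fun v => Subtype.ext (Subtype.ext (LinearMap.congr_fun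
          (hTpow (p ^ j) (Quotient.out t)) ((v : V) : W))), mul_assoc,
        show S1 * (u⁻¹ : (Module.End k W1)ˣ).val = 1 from u.mul_inv, mul_one])
    (fun t => by rw [hiter, hsTN]; rfl)
    (fun t ht b hb hbM => by rw [hiter]; exact hfreeT t ht b hb hbM)
  obtain ⟨d, hd⟩ := H20.HH.exists_card_eq_sq hproj hnd hTk
  have hdvdT : M ∣ Fintype.card TT - 1 := by
    have := dvd_card_sub_one (sT : MulAut TT) hMpos hsTN hfreeT
    rwa [Nat.card_eq_fintype_card] at this
  have hone : 1 < Fintype.card TT := by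
    rw [← Nat.card_eq_fintype_card, hTT, ← Subgroup.index_eq_card]
    exact Subgroup.one_lt_index_of_ne_top hRtop
  have hd2 : 2 ≤ d := by
    by_contra h
    rw [hd] at hone
    have : d * d ≤ 1 * 1 := Nat.mul_le_mul (by omega) (by omega)
    omega
  have hdM : d ≤ M - 1 := by
    rw [hd, sq] at hbound
    exact Nat.mul_self_le_mul_self_iff.1 hbound
  have hdM1 : d + 1 = M := by
    rw [hd] at hdvdT
    have hfac : d * d - 1 = (d - 1) * (d + 1) := by
      rw [mul_comm (d - 1), ← Nat.sq_sub_sq, sq, one_pow]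
    rw [hfac] at hdvdT
    by_cases h1 : p ∣ d - 1
    · have h2 : ¬ p ∣ d + 1 := fun h => by
        have h' := Nat.dvd_sub h h1
        rw [show d + 1 - (d - 1) = 2 by omega] at h'
        exact hp2 ((Nat.prime_dvd_prime_iff_eq hp Nat.prime_two).1 h')
      have h3 : M ∣ d - 1 :=
        ((hp.coprime_iff_not_dvd.2 h2).pow_left _).dvd_of_dvd_mul_right hdvdT
      have h4 := Nat.le_of_dvd (by omega) h3
      omega
    · have h3 : M ∣ d + 1 :=
        ((hp.coprime_iff_not_dvd.2 h1).pow_left _).dvd_of_dvd_mul_left hdvdT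
      have h4 := Nat.le_of_dvd (by omega) h3
      omega
  have hq := (Fact.out : q.Prime)
  obtain ⟨m, -, hm⟩ := (Nat.dvd_prime_pow hq).1
    (show d ∣ q ^ a by rw [← hTcard, hd]; exact Dvd.intro d rfl)
  have hm1 : 1 ≤ m := Nat.one_le_iff_ne_zero.2 fun h => by
    rw [hm, h, pow_zero] at hd2; omega
  -- the orbit of `R` decomposes `Q / Z`
  have hmapZ : Z.map (σ : Q →* Q) = Z :=
    Subgroup.eq_of_le_of_card_ge (by rintro _ ⟨y, hy, rfl⟩; exact hZσ y hy)
      (by rw [Subgroup.card_map_of_injective σ.injective])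
  let sA : Q ⧸ Z ≃* Q ⧸ Z := QuotientGroup.congr Z Z σ hmapZ
  have hsAN : (sA : MulAut (Q ⧸ Z)) ^ p ^ (n + 1) = 1 := MulEquiv.ext fun t => by
    induction t using QuotientGroup.induction_on with
    | _ y => rw [congr_pow_apply σ hmapZ, hσ]; rfl
  have hlastA : ∀ t : Q ⧸ Z, ((sA : MulAut (Q ⧸ Z)) ^ p ^ (n + 1 - 1)) t = t → t = 1 := by
    intro t
    induction t using QuotientGroup.induction_on with
    | _ y =>
      intro h
      rw [congr_pow_apply σ hmapZ, Nat.add_sub_cancel, ← hτdef, eq_comm, QuotientGroup.eq] at h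
      exact (QuotientGroup.eq_one_iff y).2 (hA y h)
  obtain ⟨D', hD'⟩ := IsPGroup.iff_card.1 (hQ.to_quotient Z)
  have hD'0 : D' ≠ 0 := fun h => hZtop (Subgroup.index_eq_one.1 (by
    rw [Subgroup.index_eq_card, hD', h, pow_zero]))
  have hdvdA : p ^ (n + 1 - j + j) ∣ q ^ D' - 1 := by
    rw [show n + 1 - j + j = n + 1 by omega, ← hD']
    exact dvd_card_sub_one (sA : MulAut (Q ⧸ Z)) (pow_pos hp.pos _) hsAN
      (free_of_last (sA : MulAut (Q ⧸ Z)) hsAN hlastA)
  have hDle : 2 * m * p ^ j ≤ D' :=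
    two_mul_le hp2 hq.one_lt (by omega) hm1 (by rw [← hm, ← hMdef]; exact hdM1) hD'0 hdvdA
  let Φ : Q →* (Fin (p ^ j) → TT) :=
    MonoidHom.mk' (fun y i => QuotientGroup.mk' R ((σ ^ (i : ℕ)) y))
      (fun x y => funext fun i => by simp only [Pi.mul_apply, map_mul])
  have hker : Φ.ker = Z := by
    apply le_antisymm
    · intro y hy
      have hall : ∀ b, (σ ^ b) y ∈ R := fun b => by
        have h : (σ ^ (b % p ^ j)) y ∈ R := (QuotientGroup.eq_one_iff _).1
          (congrFun hy ⟨b % p ^ j, Nat.mod_lt _ (pow_pos hp.pos _)⟩)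
        rw [← Nat.div_add_mod b (p ^ j), pow_add, MulAut.mul_apply, pow_mul, ← hσ',
          ← hsRp _ ⟨_, h⟩]
        exact SetLike.coe_mem _
      refine Subgroup.mem_center_iff.2 fun x => (commutatorElement_eq_one_iff_mul_comm.1
        (congrArg Subtype.val (hfaith (cz y x) fun b => ?_))).symm
      rw [← hczσ]
      exact hall b _
    · intro z hz
      refine funext fun i => (QuotientGroup.eq_one_iff _).2 (hZR ?_)
      rw [← hsZp _ ⟨z, hz⟩]; exact SetLike.coe_mem _
  have hΦ : Function.Surjective Φ := by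
    rw [← MonoidHom.range_eq_top]
    refine Subgroup.eq_top_of_card_eq _ (le_antisymm (Subgroup.card_le_card_group _) ?_)
    rw [← Subgroup.index_ker, hker, Subgroup.index_eq_card, hD', Nat.card_fun, Nat.card_fin,
      Nat.card_eq_fintype_card, hd, hm, ← pow_add, ← pow_mul, ← two_mul]
    exact Nat.pow_le_pow_right hq.pos hDle
  -- a commutator with a single nontrivial conjugate weight
  obtain ⟨y, x, hyx⟩ : ∃ y x, χ (cz y x) ≠ 1 := by
    by_contra hcon
    push Not at hcon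
    exact hRtop ((Subgroup.eq_top_iff' _).2 hcon)
  have hcl : ∀ a a' b : Q, (a : TT) = (a' : TT) → χ (cz a b) = χ (cz a' b) := fun a a' b h => by
    rw [show a' = a * (a⁻¹ * a') by rw [mul_inv_cancel_left], hczl, hχmul,
      (QuotientGroup.eq.1 h : a⁻¹ * a' ∈ R) b, mul_one]
  have hsw : ∀ a b : Q, χ (cz a b) = 1 → χ (cz b a) = 1 := fun a b h => by
    have h' : cz a b * cz b a = 1 := Subtype.ext (by
      show ⁅a, b⁆ * ⁅b, a⁆ = 1
      rw [← commutatorElement_inv a b, mul_inv_cancel])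
    have h'' := congrArg χ h'
    rwa [hχmul, h, one_mul, hχ1] at h''
  set i₀ : Fin (p ^ j) := ⟨0, pow_pos hp.pos _⟩ with hi₀
  obtain ⟨A, hA'⟩ := hΦ (Pi.mulSingle i₀ (y : TT))
  obtain ⟨B, hB'⟩ := hΦ (Pi.mulSingle i₀ (x : TT))
  have hA0 : (A : TT) = (y : TT) := (congrFun hA' i₀).trans (Pi.mulSingle_eq_same _ _)
  have hB0 : (B : TT) = (x : TT) := (congrFun hB' i₀).trans (Pi.mulSingle_eq_same _ _)
  have hAi : ∀ b, 0 < b → b < p ^ j → (σ ^ b) A ∈ R := fun b hb hbj =>
    (QuotientGroup.eq_one_iff _).1 ((congrFun hA' ⟨b, hbj⟩).trans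
      (Pi.mulSingle_eq_of_ne (fun h => hb.ne' (congrArg Fin.val h)) _))
  set z₀ := cz A B with hz₀
  have hz₀χ : χ z₀ ≠ 1 := fun h => hyx <| hsw _ _ <| by
    rw [← hcl B x y hB0]
    refine hsw _ _ ?_
    rw [← hcl A y B hA0]; exact h
  have hjZ : ∀ z : Z, (sZ ^ p ^ j) z = z := by
    intro z
    rw [← mul_inv_eq_one]
    refine hfaith _ fun a => ?_
    rw [map_mul, map_inv, ← MulAut.mul_apply, ← pow_add, add_comm, pow_add, MulAut.mul_apply,
      hχmul, hχj, ← hχmul, mul_inv_cancel, hχ1]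
  letI : CommGroup Z :=
    { (inferInstance : Group Z) with
      mul_comm := fun a b => Subtype.ext (Subgroup.mem_center_iff.1 b.2 a.1) }
  set g : ℕ → Z := fun t => (sZ ^ t) z₀ with hg
  have hsz : sZ (∏ t ∈ Finset.range (p ^ j), g t) = ∏ t ∈ Finset.range (p ^ j), g t := by
    rw [map_prod]
    have h1 : ∀ t, sZ (g t) = g (t + 1) := fun t => by
      show sZ ((sZ ^ t) z₀) = (sZ ^ (t + 1)) z₀
      rw [pow_succ', MulAut.mul_apply]
    simp only [h1]
    have h2 : (∏ t ∈ Finset.range (p ^ j), g (t + 1)) * g 0 =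
        (∏ t ∈ Finset.range (p ^ j), g t) * g (p ^ j) := by
      rw [← Finset.prod_range_succ', Finset.prod_range_succ]
    rw [show g (p ^ j) = g 0 from (hjZ z₀).trans (by simp [hg])] at h2
    exact mul_right_cancel h2
  have hz1 : ∏ t ∈ Finset.range (p ^ j), g t = 1 :=
    Subtype.ext (hfpf _ (by rw [← hsZ, hsz]))
  let χH : Z →* k := { toFun := χ, map_one' := hχ1, map_mul' := hχmul }
  have h5 := congrArg χH hz1
  rw [map_prod, map_one, Finset.prod_eq_single 0 (fun b hb hb0 => by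
      show χ ((sZ ^ b) (cz A B)) = 1
      rw [← hczσ]
      exact hAi b (Nat.pos_of_ne_zero hb0) (Finset.mem_range.1 hb) _)
    (fun h => absurd (Finset.mem_range.2 (pow_pos hp.pos _)) h)] at h5
  exact hz₀χ h5

end Cfsg.Agent.H84.Shult
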