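import Mathlib
import Cfsg.Agent.H84.Shult.Core
import Cfsg.Agent.H84.FpfFour

/-! The Shult–Gross lemma: the element of order `p` of a fixed-point-free `⟨σ⟩` acts trivially in
every representation of a `q`-group on which `σ` has no fixed vector. -/

set_option autoImplicit false

namespace Cfsg.Agent.H84.Shult

/-- `ρ ((σ ^ p ^ n) y) = ρ y`. -/
theorem rep_fix {p n q : ℕ} [Fact p.Prime] [Fact q.Prime] (hp2 : p ≠ 2) (hqp : q ≠ p)
    {k : Type*} [Field k] [IsAlgClosed k] (hpk : (p : k) ≠ 0) (hqk : (q : k) ≠ 0) :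
    ∀ (N : ℕ) (Q : Type*) [Group Q] [Finite Q] (W : Type*) [AddCommGroup W] [Module k W]
      [FiniteDimensional k W], Nat.card Q + Module.finrank k W ≤ N → IsPGroup q Q →
      ∀ σ : MulAut Q, σ ^ p ^ (n + 1) = 1 → (∀ y, σ y = y → y = 1) →
      ∀ (ρ : Q →* Module.End k W) (T : Module.End k W), T ^ p ^ (n + 1) = 1 →
      ∑ t ∈ Finset.range (p ^ (n + 1)), T ^ t = 0 → (∀ y, T * ρ y = ρ (σ y) * T) →
      ∀ y, ρ ((σ ^ p ^ n) y) = ρ y := by
  intro N
  induction N using Nat.strong_induction_on with
  | _ N ih =>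
  intro Q _ _ W _ _ _ hN hQ σ hσ hfpf ρ T hT hsum hc y
  have hp := (Fact.out : p.Prime)
  rcases subsingleton_or_nontrivial W with hsub | hnt
  · exact LinearMap.ext fun w => Subsingleton.elim _ _
  have hNpos : 0 < p ^ (n + 1) := pow_pos hp.pos _
  have hTu : IsUnit T :=
    IsUnit.of_pow_eq_one hT hNpos.ne'
  by_cases hinj : Function.Injective ρ
  swap
  · -- pass to the quotient by the kernel
    set K := ρ.ker with hK
    have hKne : K ≠ ⊥ := fun h => hinj ((MonoidHom.ker_eq_bot_iff ρ).1 h)
    have hKσ : ∀ v ∈ K, σ v ∈ K := fun v hv => by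
      rw [hK, MonoidHom.mem_ker] at hv ⊢
      have h := hc v
      rw [hv, mul_one] at h
      exact hTu.mul_right_cancel (h.symm.trans (one_mul T).symm)
    have hmap : K.map (σ : Q →* Q) = K :=
      Subgroup.eq_of_le_of_card_ge (by rintro _ ⟨v, hv, rfl⟩; exact hKσ v hv)
        (by rw [Subgroup.card_map_of_injective σ.injective])
    let s : MulAut (Q ⧸ K) := QuotientGroup.congr K K σ hmap
    have hlt : Nat.card (Q ⧸ K) + Module.finrank k W < N := by
      have h1 := K.card_eq_card_quotient_mul_card_subgroup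
      have h2 : 1 < Nat.card K := K.one_lt_card_iff_ne_bot.2 hKne
      have h3 : 0 < Nat.card (Q ⧸ K) := Nat.card_pos
      have h4 : Nat.card (Q ⧸ K) < Nat.card Q := by
        rw [h1]; exact lt_mul_of_one_lt_right h3 h2
      omega
    have key := ih _ hlt (Q ⧸ K) W le_rfl (hQ.to_quotient K) s
      (MulEquiv.ext fun t => by
        induction t using QuotientGroup.induction_on with
        | _ t => rw [congr_pow_apply σ hmap, hσ]; rfl)
      (fun t => by
        induction t using QuotientGroup.induction_on with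
        | _ t =>
          intro h
          exact (QuotientGroup.eq_one_iff _).2
            (mem_of_fixed_coset σ hfpf K hKσ t (QuotientGroup.eq.1 h.symm)))
      (QuotientGroup.lift K ρ le_rfl) T hT hsum
      (fun t => by
        induction t using QuotientGroup.induction_on with
        | _ t => exact hc t) (y : Q ⧸ K)
    rw [congr_pow_apply σ hmap] at key
    exact key
  by_cases hirr : ∀ U : Submodule k W, (∀ y, ∀ w ∈ U, ρ y w ∈ U) → (∀ w ∈ U, T w ∈ U) →
      U = ⊥ ∨ U = ⊤
  · -- the irreducible case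
    have hH : ∀ H : Subgroup Q, (∀ v ∈ H, σ v ∈ H) → H ≠ ⊤ → ∀ v ∈ H, (σ ^ p ^ n) v = v := by
      intro H hH hne v hv
      obtain ⟨r, hr⟩ := exists_restrict σ H hH
      have hlt : Nat.card H + Module.finrank k W < N := by
        have := lt_of_le_of_ne (Subgroup.card_le_card_group H)
          (fun h => hne (Subgroup.eq_top_of_card_eq H h))
        omega
      have key := ih _ hlt H W le_rfl (hQ.to_subgroup H) r
        (MulEquiv.ext fun t => Subtype.ext (by
          rw [restrict_pow_apply σ r hr, hσ]; rfl))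
        (fun t ht => Subtype.ext (hfpf t (by rw [← hr, ht])))
        (ρ.comp H.subtype) T hT hsum
        (fun t => by
          show T * ρ (t : Q) = ρ ((r t : H) : Q) * T
          rw [hr]; exact hc t) ⟨v, hv⟩
      have h1 := hinj (a₁ := (((r ^ p ^ n) ⟨v, hv⟩ : H) : Q)) (a₂ := v) key
      rwa [restrict_pow_apply σ r hr] at h1
    rw [core hp2 hpk hqk hqp hQ σ hσ hfpf ρ hinj T hT hsum hc hirr hH y]
  push Not at hirr
  obtain ⟨U, hUρ, hUT, hU0, hU1⟩ := hirr
  -- `W` is reducible
  let ρU : Q →* Module.End k U :=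
    { toFun := fun v => (ρ v).restrict (hUρ v)
      map_one' := LinearMap.ext fun u => Subtype.ext (by
        show ρ 1 (u : W) = _; rw [map_one]; rfl)
      map_mul' := fun a b => LinearMap.ext fun u => Subtype.ext (by
        show ρ (a * b) (u : W) = _; rw [map_mul]; rfl) }
  let ρV : Q →* Module.End k (W ⧸ U) :=
    { toFun := fun v => U.mapQ U (ρ v) (fun u hu => hUρ v u hu)
      map_one' := LinearMap.ext fun u => by
        obtain ⟨w, rfl⟩ := Submodule.Quotient.mk_surjective U u
        rw [Submodule.mapQ_apply, map_one]; rfl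
      map_mul' := fun a b => LinearMap.ext fun u => by
        obtain ⟨w, rfl⟩ := Submodule.Quotient.mk_surjective U u
        rw [Submodule.mapQ_apply, map_mul]; rfl }
  let TU : Module.End k U := T.restrict hUT
  let TV : Module.End k (W ⧸ U) := U.mapQ U T hUT
  have hTUpow : ∀ (b : ℕ) (u : U), (((TU ^ b) u : U) : W) = (T ^ b) (u : W) := by
    intro b
    induction b with
    | zero => intro u; rfl
    | succ b ihb =>
      intro u
      rw [pow_succ', pow_succ', Module.End.mul_apply, Module.End.mul_apply, ← ihb]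
      rfl
  have hTVpow : ∀ (b : ℕ) (w : W), (TV ^ b) (Submodule.Quotient.mk w) =
      Submodule.Quotient.mk ((T ^ b) w) := by
    intro b
    induction b with
    | zero => intro w; rfl
    | succ b ihb =>
      intro w
      rw [pow_succ', pow_succ', Module.End.mul_apply, Module.End.mul_apply, ihb]
      rfl
  have hdimU : Module.finrank k U < Module.finrank k W := Submodule.finrank_lt hU1
  have hdimV : Module.finrank k (W ⧸ U) < Module.finrank k W := by
    have h1 := U.finrank_quotient_add_finrank
    have h2 : 1 ≤ Module.finrank k U := Submodule.one_le_finrank_iff.2 hU0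
    omega
  have keyU := ih _ (show Nat.card Q + Module.finrank k U < N by omega) Q U le_rfl hQ σ hσ hfpf
    ρU TU
    (LinearMap.ext fun u => Subtype.ext (by rw [hTUpow, hT]; rfl))
    (LinearMap.ext fun u => Subtype.ext (by
      rw [LinearMap.sum_apply, AddSubmonoidClass.coe_finsetSum]
      simp only [hTUpow]
      rw [← LinearMap.sum_apply, hsum]; rfl))
    (fun v => LinearMap.ext fun u => Subtype.ext (LinearMap.congr_fun (hc v) (u : W))) y
  have keyV := ih _ (show Nat.card Q + Module.finrank k (W ⧸ U) < N by omega) Q (W ⧸ U) le_rfl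
    hQ σ hσ hfpf ρV TV
    (LinearMap.ext fun u => by
      obtain ⟨w, rfl⟩ := Submodule.Quotient.mk_surjective U u
      rw [hTVpow, hT]; rfl)
    (LinearMap.ext fun u => by
      obtain ⟨w, rfl⟩ := Submodule.Quotient.mk_surjective U u
      rw [LinearMap.sum_apply]
      simp only [hTVpow]
      rw [← Submodule.mkQ_apply U]
      simp only [← Submodule.mkQ_apply]
      rw [← map_sum, ← LinearMap.sum_apply, hsum]
      simp)
    (fun v => LinearMap.ext fun u => by
      obtain ⟨w, rfl⟩ := Submodule.Quotient.mk_surjective U u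
      show (Submodule.Quotient.mk (T (ρ v w)) : W ⧸ U) = Submodule.Quotient.mk (ρ (σ v) (T w))
      rw [← Module.End.mul_apply, hc]; rfl) y
  set τ := σ ^ p ^ n with hτ
  set z := y⁻¹ * τ y with hz
  have hinvy : ∀ w, ρ y⁻¹ (ρ y w) = w := fun w => by
    rw [← Module.End.mul_apply, ← map_mul, inv_mul_cancel, map_one]; rfl
  have hgU : ∀ u ∈ U, ρ z u = u := fun u hu => by
    have h1 : ρ (τ y) u = ρ y u := congrArg Subtype.val (LinearMap.congr_fun keyU ⟨u, hu⟩)
    rw [hz, map_mul, Module.End.mul_apply, h1, hinvy]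
  have hgW : ∀ w, ρ z w - w ∈ U := fun w => by
    have h1 : ρ (τ y) w - ρ y w ∈ U :=
      (Submodule.Quotient.eq U).1 (LinearMap.congr_fun keyV (Submodule.Quotient.mk w))
    have h2 := hUρ y⁻¹ _ h1
    rwa [map_sub, hinvy, ← Module.End.mul_apply, ← map_mul] at h2
  have hpow : ∀ (m : ℕ) (w : W), ρ (z ^ m) w = w + (m : k) • (ρ z w - w) := by
    intro m
    induction m with
    | zero => intro w; simp
    | succ m ihm =>
      intro w
      rw [pow_succ', map_mul, Module.End.mul_apply, ihm, map_add, map_smul, hgU _ (hgW w),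
        Nat.cast_succ, add_smul, one_smul]
      abel
  obtain ⟨a, ha⟩ := hQ z
  have hz1 : ρ z = 1 := LinearMap.ext fun w => by
    have h1 := hpow (q ^ a) w
    rw [ha, map_one, Module.End.one_apply, eq_comm, add_eq_left, smul_eq_zero] at h1
    rw [Module.End.one_apply]
    exact sub_eq_zero.1 (h1.resolve_left (by rw [Nat.cast_pow]; exact pow_ne_zero a hqk))
  calc ρ (τ y) = ρ (y * z) := by rw [hz, mul_inv_cancel_left]
    _ = ρ y := by rw [map_mul, hz1, mul_one]

end Cfsg.Agent.H84.Shult
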