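import Mathlib
import Cfsg.Agent.H84.Shult.Rep
import Cfsg.Agent.H84.FittingTools
import Cfsg.Agent.H19.Fitting
import Cfsg.Agent.H20.PxQ
import Cfsg.Agent.H20.HallHigmanModule
import Cfsg.Agent.H21.Fpf

/-! The Shult–Gross theorem for odd primes. -/

set_option autoImplicit false

namespace Cfsg.Agent.H84.Shult

open scoped commutatorElement

/-- A fixed-point-free automorphism of `p`-power order forces `p ∤ |G|`. -/
theorem not_dvd_card {G : Type*} [Group G] [Finite G] {p N : ℕ} [Fact p.Prime] (σ : MulAut G)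
    (hσ : σ ^ p ^ N = 1) (hfpf : ∀ g, σ g = g → g = 1) : ¬ p ∣ Nat.card G := by
  intro hdvd
  letI : MulDistribMulAction (Subgroup.zpowers σ) G :=
    { smul := fun a g => (a : MulAut G) g
      one_smul := fun g => rfl
      mul_smul := fun a b g => rfl
      smul_mul := fun a x y => map_mul (a : MulAut G) x y
      smul_one := fun a => map_one (a : MulAut G) }
  have hA : IsPGroup p (Subgroup.zpowers σ) := by
    obtain ⟨b, -, hb⟩ := (Nat.dvd_prime_pow (Fact.out : p.Prime)).1 (orderOf_dvd_of_pow_eq_one hσ)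
    exact IsPGroup.of_card (n := b) (by rw [Nat.card_zpowers, hb])
  have h := H21.card_modEq_one (V := G) hA
    (fun g hg => hfpf g (hg ⟨σ, Subgroup.mem_zpowers σ⟩))
  have h1 : 0 ≡ 1 [MOD p] := ((Nat.modEq_zero_iff_dvd.2 hdvd).symm).trans h
  have h2 : p ∣ 1 := Nat.modEq_zero_iff_dvd.1 h1.symm
  exact (Fact.out : p.Prime).one_lt.not_ge (Nat.le_of_dvd one_pos h2)

/-- The lemma for an action on an elementary abelian group. -/
theorem action_fix {p n r q : ℕ} [Fact p.Prime] [Fact r.Prime] [Fact q.Prime] (hp2 : p ≠ 2)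
    (hrq : r ≠ q) (hrp : r ≠ p) (hqp : q ≠ p) {M : Type*} [CommGroup M] [Finite M]
    [Module (ZMod r) (Additive M)] {Q : Type*} [Group Q] [Finite Q] (hQ : IsPGroup q Q)
    (σ : MulAut Q) (hσ : σ ^ p ^ (n + 1) = 1) (hfpf : ∀ y, σ y = y → y = 1)
    (φ : Q →* MulAut M) (t : MulAut M) (ht : t ^ p ^ (n + 1) = 1) (hfix : ∀ w, t w = w → w = 1)
    (hc : ∀ v, t * φ v = φ (σ v) * t) (y : Q) : φ ((σ ^ p ^ n) y) = φ y := by
  haveI : Module.Finite (ZMod r) (Additive M) := Module.Finite.of_finite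
  haveI : CharP (AlgebraicClosure (ZMod r)) r :=
    charP_of_injective_algebraMap (algebraMap (ZMod r) _).injective r
  have hne : ∀ s : ℕ, s.Prime → r ≠ s → (s : AlgebraicClosure (ZMod r)) ≠ 0 := fun s hs h1 h2 =>
    h1 ((Nat.prime_dvd_prime_iff_eq Fact.out hs).1 ((CharP.cast_eq_zero_iff _ r s).1 h2))
  set κ := H20.HH.repK (p := r) (MonoidHom.id (MulAut M)) with hκ
  have key := rep_fix (n := n) hp2 hqp (hne p Fact.out hrp) (hne q Fact.out hrq) _ Q _ le_rfl hQ σ
    hσ hfpf (κ.comp φ) (κ t) (by rw [← map_pow, ht, map_one])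
    (H20.HH.sum_repK_eq_zero (p := r) (MonoidHom.id (MulAut M)) ht hfix)
    (fun v => by rw [MonoidHom.comp_apply, MonoidHom.comp_apply, ← map_mul, hc, map_mul]) y
  have h1 : κ ((φ y)⁻¹ * φ ((σ ^ p ^ n) y)) = 1 := by
    rw [map_mul, show κ (φ ((σ ^ p ^ n) y)) = κ (φ y) from key, ← map_mul, inv_mul_cancel, map_one]
  exact (inv_mul_eq_one.1 (H20.HH.eq_one_of_repK_eq_one (p := r) (MonoidHom.id (MulAut M)) h1)).symm

/-- The element of order `p` of `⟨σ⟩` moves the elements of an invariant `q`-subgroup inside the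
centraliser of an invariant normal `r`-subgroup. -/
theorem commute_of_pgroup {G : Type*} [Group G] [Finite G] {p n r q : ℕ} [Fact p.Prime]
    [Fact r.Prime] [Fact q.Prime] (hp2 : p ≠ 2) (hrq : r ≠ q) (hrp : r ≠ p) (hqp : q ≠ p)
    (σ : MulAut G) (hσ : σ ^ p ^ (n + 1) = 1) (hfpf : ∀ g, σ g = g → g = 1)
    (P : Subgroup G) [P.Normal] (hP : IsPGroup r P) (hPσ : ∀ v ∈ P, σ v ∈ P)
    (Q : Subgroup G) (hQ : IsPGroup q Q) (hQσ : ∀ v ∈ Q, σ v ∈ Q) (y : G) (hy : y ∈ Q) :
    y⁻¹ * (σ ^ p ^ n) y ∈ Subgroup.centralizer (P : Set G) := by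
  classical
  obtain ⟨sP, hsP⟩ := exists_restrict σ P hPσ
  obtain ⟨sQ, hsQ⟩ := exists_restrict σ Q hQσ
  letI : CommGroup (P ⧸ frattini P) :=
    { (inferInstance : Group (P ⧸ frattini P)) with
      mul_comm := fun u v => by
        induction u using QuotientGroup.induction_on with
        | _ u =>
          induction v using QuotientGroup.induction_on with
          | _ v =>
            rw [← QuotientGroup.mk_mul, ← QuotientGroup.mk_mul, QuotientGroup.eq]
            refine H24.commutator_le_frattini hP ?_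
            have : (u * v)⁻¹ * (v * u) = ⁅v⁻¹, u⁻¹⁆ := by rw [commutatorElement_def]; group
            rw [this]
            exact Subgroup.commutator_mem_commutator (Subgroup.mem_top _) (Subgroup.mem_top _) }
  let Ψ : MulAut P →* MulAut (P ⧸ frattini P) :=
    { toFun := fun a => QuotientGroup.congr (frattini P) (frattini P) a
        (Subgroup.characteristic_iff_map_eq.1 frattini_characteristic a)
      map_one' := MulEquiv.ext fun w => by
        induction w using QuotientGroup.induction_on with | _ u => rfl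
      map_mul' := fun a b => MulEquiv.ext fun w => by
        induction w using QuotientGroup.induction_on with | _ u => rfl }
  have hW : ∀ w : Additive (P ⧸ frattini P), r • w = 0 := by
    intro w
    obtain ⟨v, rfl⟩ := Additive.ofMul.surjective w
    obtain ⟨u, rfl⟩ := QuotientGroup.mk_surjective v
    rw [← ofMul_pow, ← QuotientGroup.mk_pow,
      (QuotientGroup.eq_one_iff _).2 (H24.pow_mem_frattini hP u), ofMul_one]
  letI : Module (ZMod r) (Additive (P ⧸ frattini P)) := AddCommGroup.zmodModule hW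
  have hsPN : sP ^ p ^ (n + 1) = 1 := MulEquiv.ext fun v => Subtype.ext (by
    rw [restrict_pow_apply σ sP hsP, hσ]; rfl)
  have hsQN : sQ ^ p ^ (n + 1) = 1 := MulEquiv.ext fun v => Subtype.ext (by
    rw [restrict_pow_apply σ sQ hsQ, hσ]; rfl)
  let φ : Q →* MulAut (P ⧸ frattini P) := (Ψ.comp (MulAut.conjNormal (H := P))).comp Q.subtype
  have key := action_fix (r := r) (n := n) hp2 hrq hrp hqp hQ sQ hsQN
    (fun v hv => Subtype.ext (hfpf v (by rw [← hsQ, hv]))) φ (Ψ sP)
    (by rw [← map_pow, hsPN, map_one])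
    (fun w hw => by
      obtain ⟨u, rfl⟩ := QuotientGroup.mk'_surjective (frattini P) w
      refine (QuotientGroup.eq_one_iff u).2 ?_
      refine mem_of_fixed_coset sP (fun t ht => Subtype.ext (hfpf t (by rw [← hsP, ht])))
        (frattini P)
        (fun t ht => (Subgroup.characteristic_iff_map_le.1 frattini_characteristic sP) ⟨t, ht, rfl⟩)
        u ?_
      exact QuotientGroup.eq.1 (Eq.symm hw))
    (fun v => by
      show Ψ sP * Ψ (MulAut.conjNormal (v : G)) = Ψ (MulAut.conjNormal ((sQ v : Q) : G)) * Ψ sP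
      rw [← map_mul, ← map_mul]
      congr 1
      refine MulEquiv.ext fun u => Subtype.ext ?_
      simp [MulAut.mul_apply, hsP, hsQ, MulAut.conjNormal_apply])
    ⟨y, hy⟩
  set z := y⁻¹ * (σ ^ p ^ n) y with hz
  have hpowQ : ∀ i, (σ ^ i) y ∈ Q := fun i => by
    rw [← restrict_pow_apply σ sQ hsQ i ⟨y, hy⟩]; exact SetLike.coe_mem _
  have hzQ : z ∈ Q := mul_mem (inv_mem hy) (hpowQ _)
  have hz1 : Ψ (MulAut.conjNormal z) = 1 := by
    have h1 : φ ⟨z, hzQ⟩ = 1 := by
      rw [show (⟨z, hzQ⟩ : Q) = ⟨y, hy⟩⁻¹ * (sQ ^ p ^ n) ⟨y, hy⟩ from Subtype.ext (by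
        simp [hz, restrict_pow_apply σ sQ hsQ]), map_mul, key, ← map_mul, inv_mul_cancel, map_one]
    exact h1
  have hA : Subgroup.zpowers z ≤ Subgroup.centralizer (P : Set G) := by
    refine H20.le_centralizer_of_trivial_on_frattini ?_ ?_ ?_
    · rw [Subgroup.normalizer_eq_top_iff.2 (inferInstance : P.Normal)]
      exact le_top
    · obtain ⟨a, ha⟩ := IsPGroup.iff_card.1
        (hQ.to_le (Subgroup.zpowers_le.2 hzQ))
      obtain ⟨b, hb⟩ := IsPGroup.iff_card.1 (hP.to_subgroup (frattini P))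
      rw [ha, hb]
      exact Nat.Coprime.pow _ _ ((Nat.coprime_primes Fact.out Fact.out).2 (Ne.symm hrq))
    · intro a ha k hk
      have h1 : Ψ (MulAut.conjNormal a) = 1 := by
        obtain ⟨m, rfl⟩ := Subgroup.mem_zpowers_iff.1 ha
        have hk' : z ∈ (Ψ.comp (MulAut.conjNormal (H := P))).ker := MonoidHom.mem_ker.2 hz1
        exact MonoidHom.mem_ker.1 (zpow_mem hk' m)
      have h3 := DFunLike.congr_fun h1 ((⟨k, hk⟩ : P) : P ⧸ frattini P)
      refine ⟨MulAut.conjNormal a (⟨k, hk⟩ : P) * (⟨k, hk⟩ : P)⁻¹, ?_, by simp [mul_assoc]⟩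
      rw [SetLike.mem_coe, ← QuotientGroup.eq_one_iff, QuotientGroup.mk_mul, QuotientGroup.mk_inv,
        mul_inv_eq_one]
      exact h3
  exact hA (Subgroup.mem_zpowers z)

/-- `σ ^ p ^ n` acts trivially on `G / F(G)`. -/
theorem pow_trivial_mod_fitting {G : Type*} [Group G] [Finite G] [Group.IsSolvable G] {p n : ℕ}
    [Fact p.Prime] (hp2 : p ≠ 2) (σ : MulAut G) (hσ : σ ^ p ^ (n + 1) = 1)
    (hfpf : ∀ g, σ g = g → g = 1) (g : G) :
    g⁻¹ * (σ ^ p ^ n) g ∈ Cfsg.fittingSubgroup G := by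
  classical
  haveI := H19.fitting_normal G
  set F := Cfsg.fittingSubgroup G with hF
  have hchar : ∀ (N : Subgroup G), N.Characteristic → ∀ (a : MulAut G), ∀ x ∈ N, a x ∈ N :=
    fun N hN a x hx => Subgroup.characteristic_iff_map_le.1 hN a ⟨x, hx, rfl⟩
  have hmapF := Subgroup.characteristic_iff_map_eq.1 (H19.fitting_characteristic G) σ
  let s : MulAut (G ⧸ F) := QuotientGroup.congr F F σ hmapF
  have hpG := not_dvd_card σ hσ hfpf
  have hA : IsPGroup p (Subgroup.zpowers σ) := by
    obtain ⟨b, -, hb⟩ := (Nat.dvd_prime_pow (Fact.out : p.Prime)).1 (orderOf_dvd_of_pow_eq_one hσ)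
    exact IsPGroup.of_card (n := b) (by rw [Nat.card_zpowers, hb])
  have hneq : ∀ r : ℕ, r.Prime → ∀ {H : Subgroup G}, IsPGroup r H → H ≠ ⊥ → r ≠ p := by
    intro r hr H hH hne he
    haveI := Fact.mk hr
    obtain ⟨a, ha⟩ := IsPGroup.iff_card.1 hH
    rcases a with _ | a
    · exact hne (Subgroup.card_eq_one.1 (by simpa using ha))
    · exact hpG (he ▸ (dvd_pow_self r a.succ_ne_zero).trans (ha ▸ H.card_subgroup_dvd_card))
  -- the statement on every `O_q (G / F)`
  have hq : ∀ q : ℕ, q.Prime → ∀ x ∈ Cfsg.pCore q (G ⧸ F), (s ^ p ^ n) x = x := by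
    intro q hq x hx
    haveI := Fact.mk hq
    haveI := H19.pCore_normal q (G ⧸ F)
    by_cases hqp : q = p
    · have hbot : Cfsg.pCore q (G ⧸ F) = ⊥ := by
        obtain ⟨a, ha⟩ := IsPGroup.iff_card.1 (H19.pCore_isPGroup (G := G ⧸ F) q)
        rcases a with _ | a
        · exact Subgroup.card_eq_one.1 (by simpa using ha)
        · exact absurd (hqp ▸ ((dvd_pow_self q a.succ_ne_zero).trans
            (ha ▸ (Cfsg.pCore q (G ⧸ F)).card_subgroup_dvd_card)).trans
              F.card_quotient_dvd_card) hpG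
      rw [hbot, Subgroup.mem_bot] at hx
      rw [hx, map_one]
    set L := (Cfsg.pCore q (G ⧸ F)).comap (QuotientGroup.mk' F) with hL
    have hLσ : ∀ a ∈ Subgroup.zpowers σ, ∀ v ∈ L, (a : MulAut G) v ∈ L := by
      intro a _ v hv
      exact Subgroup.characteristic_iff_map_le.1 (H19.pCore_characteristic q (G ⧸ F))
        (QuotientGroup.congr F F a
          (Subgroup.characteristic_iff_map_eq.1 (H19.fitting_characteristic G) a))
        ⟨_, hv, rfl⟩
    obtain ⟨S, hS⟩ := exists_invariant_sylow (Subgroup.zpowers σ) hA L hLσ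
      (fun h => hpG (h.trans L.card_subgroup_dvd_card)) q
    set Qm := (S : Subgroup L).map L.subtype with hQm
    obtain ⟨y, hyQ, rfl⟩ : ∃ y ∈ Qm, (y : G ⧸ F) = x := by
      let f : L →* Cfsg.pCore q (G ⧸ F) :=
        (QuotientGroup.mk' F).subgroupComap (Cfsg.pCore q (G ⧸ F))
      have hf : Function.Surjective f := by
        rintro ⟨u, hu⟩
        obtain ⟨g, rfl⟩ := QuotientGroup.mk'_surjective F u
        exact ⟨⟨g, hu⟩, rfl⟩
      have htop : (S : Subgroup L).map f = ⊤ := by
        have hidx : ((S : Subgroup L).map f).index ∣ (S : Subgroup L).index :=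
          Subgroup.index_map_dvd _ hf
        have hnd : ¬ q ∣ ((S : Subgroup L).map f).index := fun h => S.not_dvd_index (h.trans hidx)
        obtain ⟨k, hk⟩ := (H19.pCore_isPGroup (G := G ⧸ F) q).index ((S : Subgroup L).map f)
        rw [← Subgroup.index_eq_one]
        rcases k with _ | k
        · simpa using hk
        · exact absurd (hk ▸ dvd_pow_self q (Nat.succ_ne_zero k)) hnd
      have hx' : (⟨x, hx⟩ : Cfsg.pCore q (G ⧸ F)) ∈ (S : Subgroup L).map f := by
        rw [htop]; trivial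
      obtain ⟨v, hv, hve⟩ := hx'
      exact ⟨v, ⟨v, hv, rfl⟩, congrArg Subtype.val hve⟩
    rw [congr_pow_apply σ hmapF, eq_comm, QuotientGroup.eq]
    have hpowQ : (σ ^ p ^ n) y ∈ Qm :=
      hS _ (pow_mem (Subgroup.mem_zpowers σ) _) y hyQ
    refine mem_fitting_of_mem_comap_pCore q _ ?_ fun r hr hrq => ?_
    · exact (Subgroup.map_subtype_le _) (mul_mem (inv_mem hyQ) hpowQ)
    · haveI := Fact.mk hr
      haveI := H19.pCore_normal r G
      by_cases hr0 : Cfsg.pCore r G = ⊥
      · rw [hr0, Subgroup.mem_centralizer_iff]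
        rintro v hv
        rw [Subgroup.coe_bot, Set.mem_singleton_iff] at hv
        rw [hv, one_mul, mul_one]
      exact commute_of_pgroup hp2 hrq (hneq r hr (H19.pCore_isPGroup r) hr0) hqp σ hσ hfpf _
        (H19.pCore_isPGroup r) (hchar _ (H19.pCore_characteristic r G) σ) Qm
        (S.isPGroup'.map _) (fun v hv => hS _ (Subgroup.mem_zpowers σ) v hv) y hyQ
  set τ := s ^ p ^ n with hτ
  set F2 := Cfsg.fittingSubgroup (G ⧸ F) with hF2
  have hτF : ∀ x ∈ F2, τ x = x := by
    intro x hx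
    have hle : F2 ≤ MonoidHom.eqLocus (τ : G ⧸ F ≃* G ⧸ F).toMonoidHom (MonoidHom.id _) := by
      rw [hF2, H19.fitting_eq_iSup_pCore]
      exact iSup_le fun q x hx => hq q q.2 x hx
    exact hle hx
  have hmove : ∀ h : G ⧸ F, h⁻¹ * τ h ∈ F2 := by
    intro h
    apply H19.centralizer_fitting_le
    rw [Subgroup.mem_centralizer_iff]
    intro f hf
    have h1 := hτF _ ((H19.fitting_normal (G ⧸ F)).conj_mem f hf h)
    rw [map_mul, map_mul, hτF f hf, map_inv] at h1
    calc f * (h⁻¹ * τ h) = h⁻¹ * (h * f * h⁻¹) * τ h := by group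
      _ = h⁻¹ * (τ h * f * (τ h)⁻¹) * τ h := by rw [h1]
      _ = h⁻¹ * τ h * f := by group
  suffices h : τ (g : G ⧸ F) = (g : G ⧸ F) by
    rw [hτ, congr_pow_apply σ hmapF, eq_comm, QuotientGroup.eq] at h
    exact h
  set z := (g : G ⧸ F)⁻¹ * τ g with hz
  have hzfix : τ z = z := hτF _ (hmove _)
  have hpow : ∀ i, (τ ^ i) (g : G ⧸ F) = (g : G ⧸ F) * z ^ i := by
    intro i
    induction i with
    | zero => simp
    | succ i ih =>
      rw [pow_succ', MulAut.mul_apply, ih, map_mul, map_pow, hzfix, pow_succ', ← mul_assoc,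
        show τ (g : G ⧸ F) = (g : G ⧸ F) * z by rw [hz, mul_inv_cancel_left]]
  have h1 := hpow p
  rw [hτ, ← pow_mul, ← pow_succ, congr_pow_apply σ hmapF, hσ, MulAut.one_apply] at h1
  have hzp : z ^ p = 1 := mul_eq_left.1 h1.symm
  have hcop : (Nat.card (G ⧸ F)).Coprime p :=
    ((Nat.Prime.coprime_iff_not_dvd Fact.out).2
      (fun h => hpG (h.trans F.card_quotient_dvd_card))).symm
  have := H21.eq_one_of_pow_eq_one hcop hzp
  exact (inv_mul_eq_one.1 this).symm

/-- A chain of length `n` with nilpotent factors. -/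
theorem exists_chain {p : ℕ} [Fact p.Prime] (hp2 : p ≠ 2) : ∀ (n : ℕ) (G : Type*) [Group G]
    [Finite G] [Group.IsSolvable G] (σ : MulAut G), σ ^ p ^ n = 1 → (∀ g, σ g = g → g = 1) →
    ∃ F : ℕ → Subgroup G, F 0 = ⊥ ∧ F n = ⊤ ∧ Monotone F ∧ (∀ i, (F i).Normal) ∧
      ∀ i, i < n → ∃ k : ℕ, (F (i + 1)).lowerCentralSeries k ≤ F i := by
  intro n
  induction n with
  | zero =>
    intro G _ _ _ σ hσ hfpf
    refine ⟨fun _ => ⊥, rfl, ?_, monotone_const, fun _ => inferInstance, fun i hi => absurd hi (by omega)⟩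
    rw [pow_zero, pow_one] at hσ
    rw [Subgroup.eq_top_iff']
    exact fun g => (Subgroup.mem_bot (G := G)).2 (hfpf g (by rw [hσ]; rfl))
  | succ n ih =>
    intro G _ _ _ σ hσ hfpf
    haveI := H19.fitting_normal G
    set N := Cfsg.fittingSubgroup G with hN
    have hmap := Subgroup.characteristic_iff_map_eq.1 (H19.fitting_characteristic G) σ
    let s : MulAut (G ⧸ N) := QuotientGroup.congr N N σ hmap
    obtain ⟨H, hH0, hHn, hHm, hHnorm, hHnil⟩ := ih (G ⧸ N) s
      (MulEquiv.ext fun x => by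
        induction x using QuotientGroup.induction_on with
        | _ g =>
          rw [congr_pow_apply σ hmap]
          show _ = ((g : G) : G ⧸ N)
          rw [eq_comm, QuotientGroup.eq]
          exact pow_trivial_mod_fitting hp2 σ hσ hfpf g)
      (fun x => by
        induction x using QuotientGroup.induction_on with
        | _ g =>
          intro h
          rw [QuotientGroup.eq_one_iff]
          exact mem_of_fixed_coset σ hfpf N (fun v hv => hmap.le ⟨v, hv, rfl⟩) g
            (QuotientGroup.eq.1 h.symm))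
    refine ⟨fun i => match i with
      | 0 => ⊥
      | i + 1 => (H i).comap (QuotientGroup.mk' N), rfl, ?_, ?_, ?_, ?_⟩
    · show (H n).comap _ = ⊤
      rw [hHn, Subgroup.comap_top]
    · refine monotone_nat_of_le_succ fun i => ?_
      cases i with
      | zero => exact bot_le
      | succ i => exact Subgroup.comap_mono (hHm (Nat.le_succ i))
    · intro i
      cases i with
      | zero => exact inferInstanceAs (⊥ : Subgroup G).Normal
      | succ i => exact (hHnorm i).comap _
    · intro i hi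
      cases i with
      | zero =>
        obtain ⟨k, hk⟩ := (Subgroup.isNilpotent_iff_lowerCentralSeries (S := N)).1
          H19.fitting_isNilpotent
        refine ⟨k, ?_⟩
        show ((H 0).comap (QuotientGroup.mk' N)).lowerCentralSeries k ≤ ⊥
        rw [hH0, MonoidHom.comap_bot, QuotientGroup.ker_mk', hk]
      | succ i =>
        obtain ⟨k, hk⟩ := hHnil i (by omega)
        refine ⟨k, ?_⟩
        show ((H (i + 1)).comap (QuotientGroup.mk' N)).lowerCentralSeries k ≤
          (H i).comap (QuotientGroup.mk' N)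
        rw [← Subgroup.map_le_iff_le_comap, Subgroup.map_lowerCentralSeries,
          Subgroup.map_comap_eq_self_of_surjective (QuotientGroup.mk'_surjective N)]
        exact hk

end Cfsg.Agent.H84.Shult
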