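import Mathlib
import Cfsg.Agent.H84.Shult.Mixed

/-! An element inverted by `τ = σ ^ 2 ^ n` centralises every invariant `q`-group, `q` prime to its
order, acting on a module where `σ` has fewer eigenvalues than its order. -/

set_option autoImplicit false

namespace Cfsg.Agent.H84.Shult

open Cfsg.Agent.H20.TB
open scoped commutatorElement

variable {k : Type*} [Field k] {W : Type*} [AddCommGroup W] [Module k W]

/-- Squaring does not lose commutation for elements of odd order. -/
theorem conj_eq_of_sq {G : Type*} [Group G] {z x : G} {r a : ℕ} (hr : Odd r) (hz : z ^ r ^ a = 1)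
    (h : z * z * x = x * (z * z)) : z * x * z⁻¹ = x := by
  obtain ⟨b, hb⟩ : Odd (r ^ a) := hr.pow
  have hz2 : z = (z * z) ^ (b + 1) := by
    rw [← sq, ← pow_mul, show 2 * (b + 1) = r ^ a + 1 by omega, pow_succ, hz, one_mul]
  have hc : Commute ((z * z) ^ (b + 1)) x := (show Commute (z * z) x from h).pow_left _
  rw [← hz2] at hc
  rw [hc.eq, mul_inv_cancel_right]

set_option maxHeartbeats 800000 in
/-- The two layer lemma. -/
theorem two_layer [IsAlgClosed k] [FiniteDimensional k W] {n q r : ℕ} [Fact q.Prime] [Fact r.Prime]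
    (hq2 : q ≠ 2) (hr2 : r ≠ 2) (hrq : r ≠ q) (h2k : (2 : k) ≠ 0) (hqk : (q : k) ≠ 0)
    {H : Type*} [Group H] [Finite H] (σ : MulAut H) (hσ : σ ^ 2 ^ (n + 1) = 1)
    (ρ : H →* Module.End k W) (hinj : Function.Injective ρ) (T : Module.End k W)
    (hT : T ^ 2 ^ (n + 1) = 1) (hc : ∀ y, T * ρ y = ρ (σ y) * T)
    (hsmall : (spec (2 ^ (n + 1)) T).card < 2 ^ (n + 1)) (z : H) (hz : (σ ^ 2 ^ n) z = z⁻¹)
    (R : Subgroup H) (hRgen : R = Subgroup.closure (Set.range fun i : ℕ => (σ ^ i) z))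
    (hRp : IsPGroup r R) :
    ∀ (N : ℕ) (Q : Subgroup H), Nat.card Q ≤ N → IsPGroup q Q → (∀ x ∈ Q, σ x ∈ Q) →
      (∀ u ∈ R, ∀ x ∈ Q, u * x * u⁻¹ ∈ Q) → ∀ x ∈ Q, z * x * z⁻¹ = x := by
  classical
  haveI : Fact (Nat.Prime 2) := ⟨Nat.prime_two⟩
  have h2k' : ((2 : ℕ) : k) ≠ 0 := by simpa using h2k
  have hzR : z ∈ R := by rw [hRgen]; exact Subgroup.subset_closure ⟨0, rfl⟩
  have hRσ : ∀ u ∈ R, σ u ∈ R := by
    intro u hu
    have hle : R ≤ R.comap (σ : H →* H) := by
      rw [hRgen, Subgroup.closure_le]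
      rintro _ ⟨i, rfl⟩
      exact Subgroup.subset_closure ⟨i + 1, show (σ ^ (i + 1)) z = σ ((σ ^ i) z) by
        rw [pow_succ', MulAut.mul_apply]⟩
    exact hle hu
  obtain ⟨sR, hsR⟩ := exists_restrict σ R hRσ
  have hsRp := restrict_pow_apply σ sR hsR
  have hrodd : Odd r := (Fact.out : r.Prime).odd_of_ne_two hr2
  obtain ⟨az, haz⟩ := hRp ⟨z, hzR⟩
  have hzord : z ^ r ^ az = 1 := congrArg Subtype.val haz
  intro N
  induction N using Nat.strong_induction_on with
  | _ N ih =>
  intro Q hQN hQ hQσ hQR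
  obtain ⟨sQ, hsQ⟩ := exists_restrict σ Q hQσ
  have hsQp := restrict_pow_apply σ sQ hsQ
  choose f hf using fun u : R => exists_restrict (MulAut.conj (u : H)) Q (fun x hx => by
    rw [MulAut.conj_apply]; exact hQR u u.2 x hx)
  let cj : R →* MulAut Q := MonoidHom.mk' f (fun u v => MulEquiv.ext fun x => Subtype.ext (by
    rw [MulAut.mul_apply, hf, hf, hf, Subgroup.coe_mul, map_mul]; rfl))
  have hcj : ∀ (u : R) (x : Q), ((cj u x : Q) : H) = (u : H) * x * (u : H)⁻¹ := fun u x => by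
    rw [show cj u = f u from rfl, hf, MulAut.conj_apply]
  have hscj : ∀ (u : R) (x : Q), sQ (cj u x) = cj (sR u) (sQ x) := fun u x => Subtype.ext (by
    rw [hsQ, hcj, hcj, hsR, hsQ, map_mul, map_mul, map_inv])
  suffices hgoal : ∀ x : Q, cj ⟨z, hzR⟩ x = x by
    intro x hx
    have h := congrArg Subtype.val (hgoal ⟨x, hx⟩)
    rwa [hcj] at h
  -- proper invariant subgroups are centralised
  have hIH : ∀ S : Subgroup Q, (∀ v ∈ S, sQ v ∈ S) → (∀ u, ∀ v ∈ S, cj u v ∈ S) → S ≠ ⊤ →
      ∀ u, ∀ v ∈ S, cj u v = v := by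
    intro S hSσ hSR hne
    set S' := S.map Q.subtype with hS'
    have hlt : Nat.card S' < N := by
      rw [hS', Subgroup.card_map_of_injective Q.subtype_injective]
      exact (lt_of_le_of_ne (Subgroup.card_le_card_group S)
        (fun h => hne (Subgroup.eq_top_of_card_eq S h))).trans_le hQN
    have hz' := ih _ hlt S' le_rfl ((hQ.to_subgroup S).map Q.subtype)
      (by rintro _ ⟨v, hv, rfl⟩; exact ⟨sQ v, hSσ v hv, hsQ v⟩)
      (by rintro u hu _ ⟨v, hv, rfl⟩; exact ⟨cj ⟨u, hu⟩ v, hSR _ v hv, hcj _ v⟩)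
    obtain ⟨sS, hsS⟩ := exists_restrict sQ S hSσ
    have hle : R ≤ Subgroup.centralizer (S' : Set H) := by
      rw [hRgen, Subgroup.closure_le]
      rintro _ ⟨i, rfl⟩
      rw [SetLike.mem_coe, Subgroup.mem_centralizer_iff]
      rintro _ ⟨v, hv, rfl⟩
      obtain ⟨v', hv'⟩ := (sS ^ i).surjective ⟨v, hv⟩
      have e : (σ ^ i) ((v' : Q) : H) = (v : H) := by
        rw [← hsQp, ← restrict_pow_apply sQ sS hsS, hv']
      show (v : H) * (σ ^ i) z = (σ ^ i) z * (v : H)
      rw [← e, ← map_mul, ← map_mul]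
      congr 1
      exact (mul_inv_eq_iff_eq_mul.1 (hz' _ ⟨(v' : Q), v'.2, rfl⟩)).symm
    intro u v hv
    refine Subtype.ext ?_
    rw [hcj, mul_inv_eq_iff_eq_mul]
    exact (Subgroup.mem_centralizer_iff.1 (hle u.2) _ ⟨v, hv, rfl⟩).symm
  set zR : R := ⟨z, hzR⟩ with hzRdef
  -- a fixed displacement is trivial
  have hfix1 : ∀ x : Q, cj zR (x⁻¹ * cj zR x) = x⁻¹ * cj zR x → cj zR x = x := by
    intro x hd
    set d := x⁻¹ * cj zR x with hddef
    have hpow : ∀ i, (cj zR ^ i) x = x * d ^ i := by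
      intro i
      induction i with
      | zero => simp
      | succ i ihi =>
        rw [pow_succ', MulAut.mul_apply, ihi, map_mul, map_pow, hd, pow_succ' d, ← mul_assoc,
          show cj zR x = x * d by rw [hddef, mul_inv_cancel_left]]
    have h1 := hpow (r ^ az)
    rw [← map_pow, haz, map_one, MulAut.one_apply] at h1
    have h2 : d ^ r ^ az = 1 := mul_eq_left.1 h1.symm
    obtain ⟨b, hb⟩ := hQ d
    have hd1 : d = 1 := orderOf_eq_one_iff.1 (Nat.eq_one_of_dvd_coprimes
      ((((Nat.coprime_primes (Fact.out : q.Prime) (Fact.out : r.Prime)).2 (Ne.symm hrq)).pow_left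
        b).pow_right az)
      (orderOf_dvd_of_pow_eq_one hb) (orderOf_dvd_of_pow_eq_one h2))
    exact (inv_mul_eq_one.1 hd1).symm
  rcases subsingleton_or_nontrivial Q with hsub | hnt
  · exact fun x => Subsingleton.elim _ _
  -- the displacements generate
  set C := Subgroup.closure (Set.range fun p : R × Q => p.2⁻¹ * cj p.1 p.2) with hC
  by_cases hCtop : C = ⊤
  swap
  · have hCσ : ∀ v ∈ C, sQ v ∈ C := by
      intro v hv
      have hle : C ≤ C.comap (sQ : Q →* Q) := by
        rw [hC, Subgroup.closure_le]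
        rintro _ ⟨⟨u, x⟩, rfl⟩
        exact Subgroup.subset_closure ⟨(sR u, sQ x),
          show (sQ x)⁻¹ * cj (sR u) (sQ x) = sQ (x⁻¹ * cj u x) by rw [map_mul, map_inv, hscj]⟩
      exact hle hv
    have hCR : ∀ u, ∀ v ∈ C, cj u v ∈ C := by
      intro w v hv
      have hle : C ≤ C.comap (cj w : Q →* Q) := by
        rw [hC, Subgroup.closure_le]
        rintro _ ⟨⟨u, x⟩, rfl⟩
        exact Subgroup.subset_closure ⟨(w * u * w⁻¹, cj w x),
          show (cj w x)⁻¹ * cj (w * u * w⁻¹) (cj w x) = cj w (x⁻¹ * cj u x) by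
            rw [map_mul (cj w), map_inv (cj w), map_mul cj, map_mul cj, map_inv cj,
              MulAut.mul_apply, MulAut.mul_apply, MulAut.inv_apply_self]⟩
      exact hle hv
    exact fun x => hfix1 x (hIH C hCσ hCR hCtop zR _ (Subgroup.subset_closure ⟨(zR, x), rfl⟩))
  haveI : Group.IsNilpotent Q := hQ.isNilpotent
  have hcharσ : ∀ (S : Subgroup Q), S.Characteristic → ∀ (a : MulAut Q), ∀ v ∈ S, a v ∈ S :=
    fun S hS a v hv => Subgroup.characteristic_iff_map_le.1 hS a ⟨v, hv, rfl⟩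
  have hcfix := hIH (commutator Q) (hcharσ _ inferInstance sQ)
    (fun u => hcharσ _ inferInstance (cj u))
    (Group.IsSolvable.commutator_lt_top_of_nontrivial Q).ne
  have hcomZ : ∀ a b : Q, ⁅a, b⁆ ∈ Subgroup.center Q := by
    intro a b
    set c := ⁅a, b⁆ with hcdef
    have hcmem : c ∈ commutator Q :=
      Subgroup.commutator_mem_commutator (Subgroup.mem_top a) (Subgroup.mem_top b)
    have hle : C ≤ Subgroup.centralizer ({c} : Set Q) := by
      rw [hC, Subgroup.closure_le]
      rintro _ ⟨⟨u, x⟩, rfl⟩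
      rw [SetLike.mem_coe, Subgroup.mem_centralizer_singleton_iff]
      have hn : (commutator Q).Normal := inferInstance
      have h1 := hcfix u _ (hn.conj_mem c hcmem x)
      rw [map_mul, map_mul, map_inv, hcfix u c hcmem] at h1
      show x⁻¹ * cj u x * c = c * (x⁻¹ * cj u x)
      calc x⁻¹ * cj u x * c = x⁻¹ * (cj u x * c * (cj u x)⁻¹) * cj u x := by group
        _ = c * (x⁻¹ * cj u x) := by rw [h1]; group
    exact Subgroup.mem_center_iff.2 fun g =>
      Subgroup.mem_centralizer_singleton_iff.1 (hle (hCtop ▸ Subgroup.mem_top g))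
  obtain ⟨cQ, hcQ⟩ := IsPGroup.iff_card.1 hQ
  have hQk : (Nat.card Q : k) ≠ 0 := by rw [hcQ, Nat.cast_pow]; exact pow_ne_zero _ hqk
  have hsQN : sQ ^ 2 ^ (n + 1) = 1 := MulEquiv.ext fun v => Subtype.ext (by
    rw [hsQp, hσ]; rfl)
  let ρQ : Q →* Module.End k W := ρ.comp Q.subtype
  have hρQ : Function.Injective ρQ := hinj.comp Q.subtype_injective
  have hcQ' : ∀ y, T * ρQ y = ρQ (sQ y) * T := fun y => by
    show T * ρ (y : H) = ρ ((sQ y : Q) : H) * T
    rw [hsQ]; exact hc y
  by_cases hab : ∀ a b : Q, a * b = b * a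
  · intro x
    have hτ : ∀ v, (sQ ^ 2 ^ n) v = v := fun v => hρQ (fixed_of_commute (p := 2) h2k' hQk sQ hsQN
      ρQ T hT hcQ' hsmall ⊤ (fun _ _ => trivial)
      (fun u _ v _ => by rw [← map_mul, ← map_mul, hab]) v trivial)
    refine Subtype.ext ?_
    rw [hcj]
    refine conj_eq_of_sq hrodd hzord ?_
    have h1 := congrArg Subtype.val (hτ (cj zR x))
    rw [hsQp, hcj, map_mul, map_mul, map_inv, hz, inv_inv, ← hsQp, hτ] at h1
    calc z * z * (x : H) = z * (z * x * z⁻¹) * z := by group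
      _ = z * (z⁻¹ * x * z) * z := by rw [h1]
      _ = x * (z * z) := by group
  -- class two
  have hZtop : Subgroup.center Q ≠ ⊤ := fun h => hab fun a b =>
    Subgroup.mem_center_iff.1 (h ▸ Subgroup.mem_top b) a
  have hZfix := hIH (Subgroup.center Q) (hcharσ _ inferInstance sQ)
    (fun u => hcharσ _ inferInstance (cj u)) hZtop
  intro x
  refine hfix1 x (hZfix zR _ (Subgroup.mem_center_iff.2 fun y => ?_))
  set d := x⁻¹ * cj zR x with hddef
  by_contra hne
  obtain ⟨χ, hχ, hχc⟩ := exists_weight_ne_one (fun v : Subgroup.center Q => ρQ (v : Q))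
    (fun u v => by rw [← map_mul, ← map_mul, Subgroup.mem_center_iff.1 v.2])
    (⟨⁅d, y⁆, hcomZ d y⟩ : Subgroup.center Q) hQk
    (by
      rw [← map_pow, ← map_one ρQ]
      congr 1
      exact pow_card_eq_one')
    (fun h => hne ((commutatorElement_eq_one_iff_mul_comm.1 (hρQ (h.trans (map_one ρQ).symm))).symm))
  obtain ⟨j, L, K, hjn, hL, hK, hKσ, hmul, hχτ, hcount⟩ :=
    pairing_count (p := 2) h2k' hQk hcomZ sQ hsQN ρQ T hT hcQ' hsmall χ hχ
  suffices hdK : d ∈ K from hχc ((hK d).1 hdK y)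
  obtain ⟨w, hw', hw0⟩ := Submodule.exists_mem_ne_zero_of_ne_bot hχ
  have hw : ∀ v : Subgroup.center Q, ρQ (v : Q) w = χ v • w := hw'
  have hχ1 : χ 1 = 1 := smul_left_injective k hw0
    (show χ 1 • w = (1 : k) • w by rw [← hw 1, Subgroup.coe_one, map_one, one_smul]; rfl)
  have hχm : ∀ a b : Subgroup.center Q, χ (a * b) = χ a * χ b := fun a b =>
    smul_left_injective k hw0 (show χ (a * b) • w = (χ a * χ b) • w by
      rw [← hw (a * b), Subgroup.coe_mul, map_mul, Module.End.mul_apply, hw b, map_smul, hw a,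
        smul_smul, mul_comm])
  let cz : Q → Q → Subgroup.center Q := fun a b => ⟨⁅a, b⁆, hcomZ a b⟩
  have hZK : Subgroup.center Q ≤ K := fun v hv => (hK v).2 fun x' => by
    rw [show (⟨⁅v, x'⁆, hcomZ v x'⟩ : Subgroup.center Q) = 1 from Subtype.ext
      (commutatorElement_eq_one_iff_mul_comm.2 (Subgroup.mem_center_iff.1 hv x').symm), hχ1]
  haveI hKn : K.Normal := ⟨fun u hu g => by
    have h : ⁅g, u⁆ * u ∈ K := mul_mem (hZK (hcomZ g u)) hu
    simpa [commutatorElement_def] using h⟩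
  have hswap : ∀ a b, χ (cz a b) * χ (cz b a) = 1 := fun a b => by
    rw [← hχm, ← hχ1]
    congr 1
    refine Subtype.ext ?_
    show ⁅a, b⁆ * ⁅b, a⁆ = 1
    rw [← commutatorElement_inv a b, mul_inv_cancel]
  have hcongr : ∀ a a' b b' : Q, a⁻¹ * a' ∈ K → b⁻¹ * b' ∈ K → χ (cz a b) = χ (cz a' b') := by
    have hl : ∀ a a' b : Q, a⁻¹ * a' ∈ K → χ (cz a b) = χ (cz a' b) := fun a a' b h => by
      rw [show cz a' b = cz (a * (a⁻¹ * a')) b by rw [mul_inv_cancel_left]]
      show _ = χ ⟨⁅a * (a⁻¹ * a'), b⁆, hcomZ _ _⟩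
      rw [hmul, (hK _).1 h b, mul_one]
    intro a a' b b' ha hb
    rw [hl a a' b ha]
    have h1 := hswap a' b
    rw [hl b b' a' hb] at h1
    have h2 := hswap a' b'
    rw [← h2] at h1
    exact mul_right_cancel₀ (fun h0 => by rw [h0, mul_zero] at h2; exact zero_ne_one h2) h1
  set σ' := sQ ^ 2 ^ j with hσ'
  have hKR : ∀ u, ∀ v ∈ K, cj u v ∈ K := fun u v hv => (hK _).2 fun b => by
    obtain ⟨b', rfl⟩ := (cj u).surjective b
    rw [show (⟨⁅cj u v, cj u b'⁆, hcomZ _ _⟩ : Subgroup.center Q) = ⟨⁅v, b'⁆, hcomZ v b'⟩ from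
      Subtype.ext (by
        show ⁅cj u v, cj u b'⁆ = ⁅v, b'⁆
        rw [← map_commutatorElement]
        exact hZfix u _ (hcomZ v b'))]
    exact (hK v).1 hv b'
  have hmapK : ∀ a : MulAut Q, (∀ v ∈ K, a v ∈ K) → K.map (a : Q →* Q) = K := fun a ha =>
    Subgroup.eq_of_le_of_card_ge (by rintro _ ⟨v, hv, rfl⟩; exact ha v hv)
      (by rw [Subgroup.card_map_of_injective a.injective])
  letI : CommGroup (Q ⧸ K) :=
    { (inferInstance : Group (Q ⧸ K)) with
      mul_comm := fun a b => by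
        induction a using QuotientGroup.induction_on with
        | _ a =>
          induction b using QuotientGroup.induction_on with
          | _ b =>
            rw [← QuotientGroup.mk_mul, ← QuotientGroup.mk_mul, QuotientGroup.eq]
            simpa [commutatorElement_def, mul_assoc] using hZK (hcomZ b⁻¹ a⁻¹) }
  let sT : MulAut (Q ⧸ K) := QuotientGroup.congr K K σ' (hmapK σ' hKσ)
  let act : R →* MulAut (Q ⧸ K) := MonoidHom.mk'
    (fun u => QuotientGroup.congr K K (cj u) (hmapK _ (hKR u))) (fun u v => MulEquiv.ext fun t => by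
      induction t using QuotientGroup.induction_on with
      | _ t =>
        show ((cj (u * v) t : Q) : Q ⧸ K) = ((cj u (cj v t) : Q) : Q ⧸ K)
        rw [map_mul]; rfl)
  have hτ : ∀ t : Q, (sT ^ 2 ^ (n - j)) (t : Q ⧸ K) = (((sQ ^ 2 ^ n) t : Q) : Q ⧸ K) := fun t => by
    rw [congr_pow_apply σ' (hmapK σ' hKσ), hσ', ← pow_mul, ← pow_add,
      show j + (n - j) = n by omega]
  have hscjpow : ∀ (i : ℕ) (u : R) (t : Q), (sQ ^ i) (cj u t) = cj ((sR ^ i) u) ((sQ ^ i) t) := by
    intro i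
    induction i with
    | zero => intro u t; rfl
    | succ i ihi =>
      intro u t
      rw [pow_succ', pow_succ', MulAut.mul_apply, MulAut.mul_apply, MulAut.mul_apply, ihi, hscj]
  have key := act_trivial (q := q) (r := r) (T := Q ⧸ K) (n := n) (j := j) (L := L) hq2 hr2 hrq
    (hQ.to_quotient K) hjn (hL.trans_lt hsmall) sT
    (MulEquiv.ext fun t => by
      induction t using QuotientGroup.induction_on with
      | _ t =>
        rw [congr_pow_apply σ' (hmapK σ' hKσ), hσ', ← pow_mul, ← pow_add,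
          show j + (n + 1 - j) = n + 1 by omega, hsQN]
        rfl)
    hRp (sR ^ 2 ^ j)
    (by
      rw [← pow_mul, ← pow_add, show j + (n + 1 - j) = n + 1 by omega]
      exact MulEquiv.ext fun u => Subtype.ext (by rw [hsRp, hσ]; rfl))
    act
    (fun u => MulEquiv.ext fun t => by
      induction t using QuotientGroup.induction_on with
      | _ t =>
        show ((σ' (cj u t) : Q) : Q ⧸ K) = ((cj ((sR ^ 2 ^ j) u) (σ' t) : Q) : Q ⧸ K)
        rw [hσ', hscjpow])
    zR
    (by
      rw [← pow_mul, ← pow_add, show j + (n - j) = n by omega]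
      exact Subtype.ext (by rw [hsRp]; exact hz))
    (by
      intro B hB Rep hRep
      set S := B.comap (QuotientGroup.mk' K) with hS
      have hτσ : ∀ t : Q ⧸ K, (sT ^ 2 ^ (n - j)) (sT t) = sT ((sT ^ 2 ^ (n - j)) t) := fun t => by
        rw [← MulAut.mul_apply, ← MulAut.mul_apply, ← pow_succ, ← pow_succ']
      have hBs : ∀ t ∈ B, sT t ∈ B := by
        intro t ht
        rcases hB with rfl | hB
        · trivial
        · rw [hB] at ht ⊢
          rw [hτσ, ht, map_inv]
      have hcov : ∀ v ∈ S, ∃ u ∈ Rep.image Quotient.out, u ∈ S ∧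
          ∃ i : ℕ, ((σ' ^ i) u)⁻¹ * v ∈ K := by
        intro v hv
        obtain ⟨u, hu, huB, i, hi⟩ := hRep _ hv
        refine ⟨_, Finset.mem_image_of_mem _ hu, ?_, i, ?_⟩
        · show ((Quotient.out u : Q) : Q ⧸ K) ∈ B
          rw [QuotientGroup.out_eq']; exact huB
        · rw [← QuotientGroup.eq, ← congr_pow_apply σ' (hmapK σ' hKσ), QuotientGroup.out_eq']
          exact hi
      have hnondeg : ∀ v ∈ S, v ∉ K → ∃ b ∈ S, χ (cz v b) ≠ 1 := by
        intro v hv hvK
        obtain ⟨b, hb⟩ : ∃ b, χ (cz v b) ≠ 1 := by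
          by_contra hcon
          push Not at hcon
          exact hvK ((hK v).2 hcon)
        rcases hB with rfl | hB
        · exact ⟨b, trivial, hb⟩
        obtain ⟨c, hc'⟩ := IsPGroup.iff_card.1 (hQ.to_quotient K)
        have hcop : (Nat.card (Q ⧸ K)).Coprime 2 := by
          rw [hc']; exact ((Nat.coprime_primes Fact.out Nat.prime_two).2 hq2).pow_left c
        obtain ⟨am, ham⟩ := (powCoprime hcop).surjective
          ((b : Q ⧸ K) * (sT ^ 2 ^ (n - j)) (b : Q ⧸ K))
        obtain ⟨a0, rfl⟩ := QuotientGroup.mk'_surjective K am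
        simp only [powCoprime, Equiv.coe_fn_mk] at ham
        have hsq : Function.Injective (fun t : Q ⧸ K => t ^ 2) := (powCoprime hcop).injective
        have hτ2 : ∀ t : Q ⧸ K, (sT ^ 2 ^ (n - j)) ((sT ^ 2 ^ (n - j)) t) = t := fun t => by
          rw [← MulAut.mul_apply, ← pow_add]
          induction t using QuotientGroup.induction_on with
          | _ t =>
            rw [congr_pow_apply σ' (hmapK σ' hKσ), hσ', ← pow_mul, ← two_mul, ← pow_succ',
              ← pow_add, show j + (n - j + 1) = n + 1 by omega, hsQN]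
            rfl
        have hamp : (sT ^ 2 ^ (n - j)) (QuotientGroup.mk' K a0) = QuotientGroup.mk' K a0 := hsq (by
          show ((sT ^ 2 ^ (n - j)) (QuotientGroup.mk' K a0)) ^ 2 = (QuotientGroup.mk' K a0) ^ 2
          rw [← map_pow, ham, map_mul, hτ2, mul_comm])
        refine ⟨a0⁻¹ * b, ?_, fun h => hb ?_⟩
        · show QuotientGroup.mk' K (a0⁻¹ * b) ∈ B
          rw [hB, map_mul, map_inv]
          refine hsq ?_
          show ((sT ^ 2 ^ (n - j)) ((QuotientGroup.mk' K a0)⁻¹ * (b : Q ⧸ K))) ^ 2 =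
            (((QuotientGroup.mk' K a0)⁻¹ * (b : Q ⧸ K))⁻¹) ^ 2
          have hgenid : ∀ X Y : Q ⧸ K, (X * Y)⁻¹ * Y ^ 2 = X * Y * (X ^ 2)⁻¹ := fun X Y => by
            rw [eq_mul_inv_iff_mul_eq, mul_assoc, inv_mul_eq_iff_eq_mul, sq, sq]
            ac_rfl
          rw [map_mul, map_inv, hamp, mul_inv, inv_inv, mul_pow, mul_pow, inv_pow, inv_pow, ham]
          exact hgenid _ _
        · -- `v` pairs trivially with the fixed part
          have hvm : (sT ^ 2 ^ (n - j)) (v : Q ⧸ K) = (v : Q ⧸ K)⁻¹ := (hB _).1 hv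
          rw [hτ] at hvm
          have ha0 := hamp
          rw [QuotientGroup.mk'_apply, hτ] at ha0
          have e1 : χ (cz ((sQ ^ 2 ^ n) v) ((sQ ^ 2 ^ n) a0)) = χ (cz v a0) := hχτ v a0 (cz v a0) rfl
          have e2 : χ (cz ((sQ ^ 2 ^ n) v) ((sQ ^ 2 ^ n) a0)) = χ (cz v⁻¹ a0) :=
            hcongr _ _ _ _ (QuotientGroup.eq.1 (hvm.trans (QuotientGroup.mk_inv K v).symm))
              (QuotientGroup.eq.1 ha0)
          have e3 : χ (cz v⁻¹ a0) * χ (cz v a0) = 1 := by
            have := hmul v⁻¹ v a0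
            rw [show (⟨⁅v⁻¹ * v, a0⁆, hcomZ _ _⟩ : Subgroup.center Q) = 1 from Subtype.ext (by
              show ⁅v⁻¹ * v, a0⁆ = 1
              rw [inv_mul_cancel, commutatorElement_one_left]), hχ1] at this
            exact this.symm
          rw [← e2, e1] at e3
          have hz0 : χ (cz v a0) = 1 := by
            have hpow : ∀ i : ℕ, χ (cz v a0 ^ i) = χ (cz v a0) ^ i := fun i => by
              induction i with
              | zero => rw [pow_zero, pow_zero, hχ1]
              | succ i ihi => rw [pow_succ, pow_succ, hχm, ihi]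
            obtain ⟨cZ, hcZ⟩ := IsPGroup.iff_card.1 (hQ.to_subgroup (Subgroup.center Q))
            obtain ⟨m, hm⟩ : Odd (q ^ cZ) := ((Fact.out : q.Prime).odd_of_ne_two hq2).pow
            have h4 := hpow (q ^ cZ)
            rw [← hcZ, pow_card_eq_one', hχ1, hcZ, hm, pow_succ, pow_mul, sq, e3, one_pow,
              one_mul] at h4
            exact h4.symm
          have h5 := hswap v b
          have h6 : χ (cz v b) = χ (cz v a0) * χ (cz v (a0⁻¹ * b)) := by
            have h7 : cz v b = cz v a0 * cz v (a0⁻¹ * b) := Subtype.ext (by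
              show ⁅v, b⁆ = ⁅v, a0⁆ * ⁅v, a0⁻¹ * b⁆
              have hh := Subgroup.mem_center_iff.1 (hcomZ v (a0⁻¹ * b))
              calc ⁅v, b⁆ = ⁅v, a0⁆ * (a0 * ⁅v, a0⁻¹ * b⁆ * a0⁻¹) := by
                    simp only [commutatorElement_def]; group
                _ = _ := by rw [hh a0, mul_inv_cancel_right])
            rw [h7, hχm]
          rw [h6, hz0, h, one_mul]
      have hKS : K ≤ S := fun v hv => by
        show (QuotientGroup.mk' K) v ∈ B
        rw [show (QuotientGroup.mk' K) v = 1 from (QuotientGroup.eq_one_iff v).2 hv]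
        exact one_mem B
      obtain ⟨d', hd', h1, h2⟩ := hcount S hKS (fun v hv => hBs _ hv) hnondeg
        (Rep.image Quotient.out) hcov
      refine ⟨d', ?_, h1.trans (Nat.mul_le_mul_left _ Finset.card_image_le),
        h2.trans Finset.card_image_le⟩
      have e := Subgroup.relIndex_comap (⊥ : Subgroup (Q ⧸ K)) (QuotientGroup.mk' K) S
      rw [MonoidHom.comap_bot, QuotientGroup.ker_mk'] at e
      rw [← hd', e, hS, Subgroup.map_comap_eq_self_of_surjective (QuotientGroup.mk'_surjective K),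
        Subgroup.relIndex_bot_left])
  have h := DFunLike.congr_fun key (x : Q ⧸ K)
  rw [MulAut.one_apply] at h
  exact QuotientGroup.eq.1 (Eq.symm h)

end Cfsg.Agent.H84.Shult
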