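import Mathlib
import Cfsg.Agent.H84.Shult.TwoLayer
import Cfsg.Agent.H84.Shult.Main
import Cfsg.Agent.S3794

/-! Gross's theorem for automorphisms of order `2 ^ n`. -/

set_option autoImplicit false

namespace Cfsg.Agent.H84.Shult

open scoped commutatorElement

/-- The two layer lemma for an action on an elementary abelian group. -/
theorem fix_on_action {p n q r : ℕ} [Fact p.Prime] [Fact q.Prime] [Fact r.Prime] (hp2 : p ≠ 2)
    (hpq : p ≠ q) (hq2 : q ≠ 2) (hr2 : r ≠ 2) (hrq : r ≠ q) {H : Type*} [Group H] [Finite H]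
    (σ : MulAut H) (hσ : σ ^ 2 ^ (n + 1) = 1) {M : Type*} [CommGroup M] [Finite M]
    [Module (ZMod p) (Additive M)] (φ : H →* MulAut M) (t : MulAut M) (ht : t ^ 2 ^ (n + 1) = 1)
    (hfix : ∀ w, t w = w → w = 1) (hc : ∀ h, t * φ h = φ (σ h) * t)
    (z : H) (hz : (σ ^ 2 ^ n) z = z⁻¹)
    (hR : IsPGroup r (Subgroup.closure (Set.range fun i : ℕ => (σ ^ i) z)))
    (Q : Subgroup H) [Q.Normal] (hQ : IsPGroup q Q) (hQσ : ∀ x ∈ Q, σ x ∈ Q) (x : H) (hx : x ∈ Q) :
    φ (z * x * z⁻¹) = φ x := by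
  classical
  haveI : Module.Finite (ZMod p) (Additive M) := Module.Finite.of_finite
  haveI : CharP (AlgebraicClosure (ZMod p)) p :=
    charP_of_injective_algebraMap (algebraMap (ZMod p) _).injective p
  have hne : ∀ l : ℕ, l.Prime → p ≠ l → (l : AlgebraicClosure (ZMod p)) ≠ 0 := fun l hl h1 h2 =>
    h1 ((Nat.prime_dvd_prime_iff_eq Fact.out hl).1 ((CharP.cast_eq_zero_iff _ p l).1 h2))
  set N := 2 ^ (n + 1) with hN
  set K := φ.ker with hK
  have hKσ : ∀ v ∈ K, σ v ∈ K := fun v hv => by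
    rw [hK, MonoidHom.mem_ker] at hv ⊢
    have h := hc v
    rw [hv, mul_one] at h
    exact mul_right_cancel (h.symm.trans (one_mul t).symm)
  have hmap : K.map (σ : H →* H) = K :=
    Subgroup.eq_of_le_of_card_ge (by rintro _ ⟨v, hv, rfl⟩; exact hKσ v hv)
      (by rw [Subgroup.card_map_of_injective σ.injective])
  set σb : MulAut (H ⧸ K) := QuotientGroup.congr K K σ hmap with hσb
  let φb : H ⧸ K →* MulAut M := QuotientGroup.lift K φ (le_of_eq hK)
  have hφb : ∀ u : H, φb (u : H ⧸ K) = φ u := fun u => QuotientGroup.lift_mk K _ u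
  set κ := H20.HH.repK (p := p) (MonoidHom.id (MulAut M)) with hκ
  have hinj : Function.Injective (κ.comp φb) := by
    refine (injective_iff_map_eq_one _).2 fun v => ?_
    induction v using QuotientGroup.induction_on with
    | _ v =>
      intro h
      have h1 := H20.HH.eq_one_of_repK_eq_one (p := p) (MonoidHom.id (MulAut M)) h
      rw [MonoidHom.id_apply, hφb] at h1
      exact (QuotientGroup.eq_one_iff v).2 h1
  have hsum := H20.HH.sum_repK_eq_zero (p := p) (MonoidHom.id (MulAut M)) ht hfix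
  rw [← hκ] at hsum
  have hTN : κ t ^ N = 1 := by rw [← map_pow, ht, map_one]
  have hNk : ((N : ℕ) : AlgebraicClosure (ZMod p)) ≠ 0 := by
    rw [hN, Nat.cast_pow]; exact pow_ne_zero _ (hne 2 Nat.prime_two hp2)
  have hNpos : 0 < N := pow_pos two_pos _
  have hsmall : (spec N (κ t)).card < N := by
    have hsub : spec N (κ t) ⊆
        (Polynomial.nthRootsFinset N (1 : AlgebraicClosure (ZMod p))).erase 1 := by
      intro l hl
      refine Finset.mem_erase.2 ⟨fun h1 => ?_,
        (Polynomial.mem_nthRootsFinset hNpos 1).2 ((mem_spec hNpos).1 hl).1⟩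
      obtain ⟨v, hv, hv0⟩ := Submodule.exists_mem_ne_zero_of_ne_bot ((mem_spec hNpos).1 hl).2
      have hev : Module.End.HasEigenvector (κ t) l v := ⟨hv, hv0⟩
      have h2 := LinearMap.congr_fun hsum v
      simp only [LinearMap.sum_apply, hev.pow_apply, h1, one_pow, one_smul, LinearMap.zero_apply,
        Finset.sum_const, Finset.card_range, ← Nat.cast_smul_eq_nsmul (AlgebraicClosure (ZMod p))]
        at h2
      exact hv0 ((smul_eq_zero.1 h2).resolve_left hNk)
    refine lt_of_le_of_lt (Finset.card_le_card hsub) ?_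
    have h1 : (1 : AlgebraicClosure (ZMod p)) ∈ Polynomial.nthRootsFinset N 1 :=
      (Polynomial.mem_nthRootsFinset hNpos 1).2 (one_pow N)
    rw [Finset.card_erase_of_mem h1]
    have h2 : (Polynomial.nthRootsFinset N (1 : AlgebraicClosure (ZMod p))).card ≤ N := by
      rw [Polynomial.nthRootsFinset_def]
      exact (Multiset.toFinset_card_le _).trans (Polynomial.card_nthRoots N 1)
    omega
  have hσbN : σb ^ N = 1 := MulEquiv.ext fun v => by
    induction v using QuotientGroup.induction_on with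
    | _ v => rw [hσb, congr_pow_apply σ hmap, hσ]; rfl
  have hpow : ∀ i : ℕ, (σb ^ i) (z : H ⧸ K) = (((σ ^ i) z : H) : H ⧸ K) := fun i => by
    rw [hσb, congr_pow_apply σ hmap]
  have hRp : IsPGroup r (Subgroup.closure (Set.range fun i : ℕ => (σb ^ i) (z : H ⧸ K))) := by
    refine IsPGroup.to_le (hR.map (QuotientGroup.mk' K)) ?_
    rw [Subgroup.closure_le]
    rintro _ ⟨i, rfl⟩
    exact ⟨(σ ^ i) z, Subgroup.subset_closure ⟨i, rfl⟩, (hpow i).symm⟩
  have key := two_layer (k := AlgebraicClosure (ZMod p)) (n := n) (q := q) (r := r) hq2 hr2 hrq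
    (by exact_mod_cast hne 2 Nat.prime_two hp2) (hne q Fact.out hpq) σb hσbN (κ.comp φb) hinj
    (κ t) hTN
    (fun v => by
      induction v using QuotientGroup.induction_on with
      | _ v =>
        show κ t * κ (φb (v : H ⧸ K)) = κ (φb ((σ v : H) : H ⧸ K)) * κ t
        rw [hφb, hφb, ← map_mul, hc, map_mul])
    hsmall (z : H ⧸ K) (by rw [hpow, hz, QuotientGroup.mk_inv]) _ rfl hRp _
    (Q.map (QuotientGroup.mk' K)) le_rfl (hQ.map _)
    (by rintro _ ⟨v, hv, rfl⟩; exact ⟨σ v, hQσ v hv, rfl⟩)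
    (by
      intro u _
      rintro _ ⟨v, hv, rfl⟩
      obtain ⟨u, rfl⟩ := QuotientGroup.mk'_surjective K u
      exact ⟨u * v * u⁻¹, (inferInstance : Q.Normal).conj_mem v hv u, by simp⟩)
    (QuotientGroup.mk' K x) ⟨x, hx, rfl⟩
  have key' := congrArg φb key
  rw [QuotientGroup.mk'_apply, ← QuotientGroup.mk_inv, ← QuotientGroup.mk_mul,
    ← QuotientGroup.mk_mul, hφb, hφb] at key'
  exact key'

/-- An element inverted by `σ ^ 2 ^ n` centralises `O_q(G / F(G))`. -/
theorem centralize_pCore_quotient {G : Type*} [Group G] [Finite G] [Group.IsSolvable G] {n q r : ℕ}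
    [Fact q.Prime] [Fact r.Prime] (hr2 : r ≠ 2) (hrq : r ≠ q) (σ : MulAut G)
    (hσ : σ ^ 2 ^ (n + 1) = 1) (hfpf : ∀ g, σ g = g → g = 1)
    [(Cfsg.fittingSubgroup G).Normal]
    (hmap : (Cfsg.fittingSubgroup G).map (σ : G →* G) = Cfsg.fittingSubgroup G)
    (z : G ⧸ Cfsg.fittingSubgroup G)
    (hz : ((QuotientGroup.congr _ _ σ hmap : MulAut (G ⧸ Cfsg.fittingSubgroup G)) ^ 2 ^ n) z = z⁻¹)
    (hR : IsPGroup r (Subgroup.closure (Set.range fun i : ℕ =>
      ((QuotientGroup.congr _ _ σ hmap : MulAut (G ⧸ Cfsg.fittingSubgroup G)) ^ i) z))) :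
    z ∈ Subgroup.centralizer (Cfsg.pCore q (G ⧸ Cfsg.fittingSubgroup G) : Set _) := by
  classical
  haveI : Fact (Nat.Prime 2) := ⟨Nat.prime_two⟩
  revert z
  set F := Cfsg.fittingSubgroup G with hF
  set s : MulAut (G ⧸ F) := QuotientGroup.congr _ _ σ hmap with hs
  intro z hz hR
  haveI := H19.pCore_normal q (G ⧸ F)
  have h2G := not_dvd_card (p := 2) σ hσ hfpf
  rw [Subgroup.mem_centralizer_iff]
  intro x hx
  rw [SetLike.mem_coe] at hx
  set c := z * x * z⁻¹ * x⁻¹ with hcdef
  suffices hc1 : c = 1 by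
    rw [hcdef, mul_inv_eq_one, mul_inv_eq_iff_eq_mul] at hc1
    exact hc1.symm
  have hcQ : c ∈ Cfsg.pCore q (G ⧸ F) :=
    mul_mem ((H19.pCore_normal q (G ⧸ F)).conj_mem x hx z) (inv_mem hx)
  by_cases hq2 : q = 2
  · have hbot : Cfsg.pCore q (G ⧸ F) = ⊥ := by
      obtain ⟨a, ha⟩ := IsPGroup.iff_card.1 (H19.pCore_isPGroup (G := G ⧸ F) q)
      rcases a with _ | a
      · exact Subgroup.card_eq_one.1 (by simpa using ha)
      · exact absurd (hq2 ▸ ((dvd_pow_self q a.succ_ne_zero).trans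
          (ha ▸ (Cfsg.pCore q (G ⧸ F)).card_subgroup_dvd_card)).trans
            F.card_quotient_dvd_card) h2G
    rwa [hbot, Subgroup.mem_bot] at hcQ
  -- lift `c` to a `q`-element
  set L := (Cfsg.pCore q (G ⧸ F)).comap (QuotientGroup.mk' F) with hL
  obtain ⟨S⟩ : Nonempty (Sylow q L) := inferInstance
  obtain ⟨g, hgS, hgc⟩ : ∃ g ∈ (S : Subgroup L).map L.subtype, (g : G ⧸ F) = c := by
    let f : L →* Cfsg.pCore q (G ⧸ F) :=
      (QuotientGroup.mk' F).subgroupComap (Cfsg.pCore q (G ⧸ F))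
    have hf : Function.Surjective f := by
      rintro ⟨u, hu⟩
      obtain ⟨g, rfl⟩ := QuotientGroup.mk'_surjective F u
      exact ⟨⟨g, hu⟩, rfl⟩
    have htop : (S : Subgroup L).map f = ⊤ := by
      have hidx : ((S : Subgroup L).map f).index ∣ (S : Subgroup L).index :=
        Subgroup.index_map_dvd _ hf
      have hnd : ¬ q ∣ ((S : Subgroup L).map f).index := fun h => S.not_dvd_index (h.trans hidx)
      obtain ⟨k, hk⟩ := (H19.pCore_isPGroup (G := G ⧸ F) q).index ((S : Subgroup L).map f)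
      rw [← Subgroup.index_eq_one]
      rcases k with _ | k
      · simpa using hk
      · exact absurd (hk ▸ dvd_pow_self q (Nat.succ_ne_zero k)) hnd
    have hx' : (⟨c, hcQ⟩ : Cfsg.pCore q (G ⧸ F)) ∈ (S : Subgroup L).map f := by
      rw [htop]; trivial
    obtain ⟨v, hv, hve⟩ := hx'
    exact ⟨v, ⟨v, hv, rfl⟩, congrArg Subtype.val hve⟩
  rw [← hgc, QuotientGroup.eq_one_iff]
  refine mem_fitting_of_mem_comap_pCore q g ?_ fun p hp hpq => ?_
  · exact (Subgroup.map_subtype_le _) hgS
  haveI := Fact.mk hp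
  set P := Cfsg.pCore p G with hPdef
  haveI : P.Normal := H19.pCore_normal p G
  have hP : IsPGroup p P := H19.pCore_isPGroup p
  by_cases hp0 : P = ⊥
  · rw [hp0, Subgroup.mem_centralizer_iff]
    rintro v hv
    rw [Subgroup.coe_bot, Set.mem_singleton_iff] at hv
    rw [hv, one_mul, mul_one]
  have hp2 : p ≠ 2 := by
    intro he
    obtain ⟨a, ha⟩ := IsPGroup.iff_card.1 hP
    rcases a with _ | a
    · exact hp0 (Subgroup.card_eq_one.1 (by simpa using ha))
    · exact h2G (he ▸ (dvd_pow_self p a.succ_ne_zero).trans (ha ▸ P.card_subgroup_dvd_card))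
  have hPσ : ∀ v ∈ P, σ v ∈ P := fun v hv =>
    Subgroup.characteristic_iff_map_le.1 (H19.pCore_characteristic p G) σ ⟨v, hv, rfl⟩
  obtain ⟨sP, hsP⟩ := exists_restrict σ P hPσ
  letI : CommGroup (P ⧸ frattini P) :=
    { (inferInstance : Group (P ⧸ frattini P)) with
      mul_comm := fun u v => by
        induction u using QuotientGroup.induction_on with
        | _ u =>
          induction v using QuotientGroup.induction_on with
          | _ v =>
            rw [← QuotientGroup.mk_mul, ← QuotientGroup.mk_mul, QuotientGroup.eq]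
            refine H24.commutator_le_frattini hP ?_
            have : (u * v)⁻¹ * (v * u) = ⁅v⁻¹, u⁻¹⁆ := by rw [commutatorElement_def]; group
            rw [this]
            exact Subgroup.commutator_mem_commutator (Subgroup.mem_top _) (Subgroup.mem_top _) }
  let Ψ : MulAut P →* MulAut (P ⧸ frattini P) :=
    { toFun := fun a => QuotientGroup.congr (frattini P) (frattini P) a
        (Subgroup.characteristic_iff_map_eq.1 frattini_characteristic a)
      map_one' := MulEquiv.ext fun w => by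
        induction w using QuotientGroup.induction_on with | _ u => rfl
      map_mul' := fun a b => MulEquiv.ext fun w => by
        induction w using QuotientGroup.induction_on with | _ u => rfl }
  have hW : ∀ w : Additive (P ⧸ frattini P), p • w = 0 := by
    intro w
    obtain ⟨v, rfl⟩ := Additive.ofMul.surjective w
    obtain ⟨u, rfl⟩ := QuotientGroup.mk_surjective v
    rw [← ofMul_pow, ← QuotientGroup.mk_pow,
      (QuotientGroup.eq_one_iff _).2 (H24.pow_mem_frattini hP u), ofMul_one]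
  letI : Module (ZMod p) (Additive (P ⧸ frattini P)) := AddCommGroup.zmodModule hW
  let φ0 : G →* MulAut (P ⧸ frattini P) := Ψ.comp (MulAut.conjNormal (H := P))
  have hFker : F ≤ φ0.ker := by
    rw [hF, H19.fitting_eq_iSup_pCore]
    refine iSup_le fun l u hu => ?_
    rw [MonoidHom.mem_ker]
    refine MulEquiv.ext fun w => ?_
    induction w using QuotientGroup.induction_on with
    | _ v =>
      show ((MulAut.conjNormal u v : P) : P ⧸ frattini P) = (v : P ⧸ frattini P)
      by_cases hl : (l : ℕ) = p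
      · rw [hl] at hu
        have hu' : u ∈ P := hu
        rw [show MulAut.conjNormal u v = (⟨u, hu'⟩ : P) * v * (⟨u, hu'⟩ : P)⁻¹ from
          Subtype.ext (MulAut.conjNormal_apply u v), QuotientGroup.mk_mul, QuotientGroup.mk_mul,
          QuotientGroup.mk_inv, mul_inv_cancel_comm]
      · haveI := Fact.mk l.2
        congr 1
        refine Subtype.ext ?_
        rw [MulAut.conjNormal_apply, mul_inv_eq_iff_eq_mul]
        exact Subgroup.commute_of_normal_of_disjoint _ _ (H19.pCore_normal (l : ℕ) G) ‹_›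
          (IsPGroup.disjoint_of_ne (l : ℕ) p hl _ _ (H19.pCore_isPGroup (l : ℕ)) hP) u v hu v.2
  let φ : G ⧸ F →* MulAut (P ⧸ frattini P) := QuotientGroup.lift F φ0 hFker
  have hsN : s ^ 2 ^ (n + 1) = 1 := MulEquiv.ext fun w => by
    induction w using QuotientGroup.induction_on with
    | _ w => rw [hs, congr_pow_apply σ hmap, hσ]; rfl
  have hsPN : sP ^ 2 ^ (n + 1) = 1 := MulEquiv.ext fun v => Subtype.ext (by
    rw [restrict_pow_apply σ sP hsP, hσ]; rfl)
  have key := fix_on_action (q := q) (r := r) (n := n) hp2 hpq hq2 hr2 hrq s hsN φ (Ψ sP)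
    (by rw [← map_pow, hsPN, map_one])
    (fun w hw => by
      obtain ⟨u, rfl⟩ := QuotientGroup.mk'_surjective (frattini P) w
      refine (QuotientGroup.eq_one_iff u).2 ?_
      refine mem_of_fixed_coset sP (fun t ht => Subtype.ext (hfpf t (by rw [← hsP, ht])))
        (frattini P)
        (fun t ht => (Subgroup.characteristic_iff_map_le.1 frattini_characteristic sP) ⟨t, ht, rfl⟩)
        u ?_
      exact QuotientGroup.eq.1 (Eq.symm hw))
    (fun h => by
      induction h using QuotientGroup.induction_on with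
      | _ h =>
        show Ψ sP * Ψ (MulAut.conjNormal h) = Ψ (MulAut.conjNormal (σ h)) * Ψ sP
        rw [← map_mul, ← map_mul]
        congr 1
        refine MulEquiv.ext fun u => Subtype.ext ?_
        simp [MulAut.mul_apply, hsP, MulAut.conjNormal_apply])
    z hz hR (Cfsg.pCore q (G ⧸ F)) (H19.pCore_isPGroup q)
    (fun v hv => Subgroup.characteristic_iff_map_le.1 (H19.pCore_characteristic q (G ⧸ F)) s
      ⟨v, hv, rfl⟩) x hx
  have hz1 : Ψ (MulAut.conjNormal g) = 1 := by
    show φ (g : G ⧸ F) = 1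
    rw [hgc, hcdef, map_mul, key, ← map_mul, mul_inv_cancel, map_one]
  have hA : Subgroup.zpowers g ≤ Subgroup.centralizer (P : Set G) := by
    refine H20.le_centralizer_of_trivial_on_frattini ?_ ?_ ?_
    · rw [Subgroup.normalizer_eq_top_iff.2 (inferInstance : P.Normal)]
      exact le_top
    · obtain ⟨a, ha⟩ := IsPGroup.iff_card.1
        ((S.isPGroup'.map L.subtype).to_le (Subgroup.zpowers_le.2 hgS))
      obtain ⟨b, hb⟩ := IsPGroup.iff_card.1 (hP.to_subgroup (frattini P))
      rw [ha, hb]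
      exact Nat.Coprime.pow _ _ ((Nat.coprime_primes Fact.out Fact.out).2 (Ne.symm hpq))
    · intro a ha k hk
      have h1 : Ψ (MulAut.conjNormal a) = 1 := by
        obtain ⟨m, rfl⟩ := Subgroup.mem_zpowers_iff.1 ha
        have hk' : g ∈ (Ψ.comp (MulAut.conjNormal (H := P))).ker := MonoidHom.mem_ker.2 hz1
        exact MonoidHom.mem_ker.1 (zpow_mem hk' m)
      have h3 := DFunLike.congr_fun h1 ((⟨k, hk⟩ : P) : P ⧸ frattini P)
      refine ⟨MulAut.conjNormal a (⟨k, hk⟩ : P) * (⟨k, hk⟩ : P)⁻¹, ?_, by simp [mul_assoc]⟩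
      rw [SetLike.mem_coe, ← QuotientGroup.eq_one_iff, QuotientGroup.mk_mul, QuotientGroup.mk_inv,
        mul_inv_eq_one]
      exact h3
  exact hA (Subgroup.mem_zpowers g)

/-- `σ ^ 2 ^ n` is trivial on the second Fitting quotient. -/
theorem pow_two_trivial {G : Type*} [Group G] [Finite G] [Group.IsSolvable G] {n : ℕ} (σ : MulAut G)
    (hσ : σ ^ 2 ^ (n + 1) = 1) (hfpf : ∀ g, σ g = g → g = 1)
    [(Cfsg.fittingSubgroup G).Normal]
    (hmap : (Cfsg.fittingSubgroup G).map (σ : G →* G) = Cfsg.fittingSubgroup G)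
    (h : G ⧸ Cfsg.fittingSubgroup G) :
    h⁻¹ * ((QuotientGroup.congr _ _ σ hmap : MulAut (G ⧸ Cfsg.fittingSubgroup G)) ^ 2 ^ n) h ∈
      Cfsg.fittingSubgroup (G ⧸ Cfsg.fittingSubgroup G) := by
  classical
  haveI : Fact (Nat.Prime 2) := ⟨Nat.prime_two⟩
  revert h
  set F := Cfsg.fittingSubgroup G with hFdef
  set s : MulAut (G ⧸ F) := QuotientGroup.congr _ _ σ hmap with hs
  intro h
  haveI := H19.fitting_normal (G ⧸ F)
  set F2 := Cfsg.fittingSubgroup (G ⧸ F) with hF2
  have hsN : s ^ 2 ^ (n + 1) = 1 := MulEquiv.ext fun w => by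
    induction w using QuotientGroup.induction_on with
    | _ w => rw [hs, congr_pow_apply σ hmap, hσ]; rfl
  have hsfpf : ∀ w, s w = w → w = 1 := by
    intro w
    induction w using QuotientGroup.induction_on with
    | _ g =>
      intro hg
      rw [QuotientGroup.eq_one_iff]
      exact mem_of_fixed_coset σ hfpf F (fun v hv => hmap.le ⟨v, hv, rfl⟩) g
        (QuotientGroup.eq.1 hg.symm)
  have hmap2 := Subgroup.characteristic_iff_map_eq.1 (H19.fitting_characteristic (G ⧸ F)) s
  let t : MulAut ((G ⧸ F) ⧸ F2) := QuotientGroup.congr F2 F2 s hmap2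
  have hH2 := not_dvd_card (p := 2) s hsN hsfpf
  have hA : IsPGroup 2 (Subgroup.zpowers s) := by
    obtain ⟨b, -, hb⟩ := (Nat.dvd_prime_pow Nat.prime_two).1 (orderOf_dvd_of_pow_eq_one hsN)
    exact IsPGroup.of_card (n := b) (by rw [Nat.card_zpowers, hb])
  have htN : t ^ 2 ^ (n + 1) = 1 := MulEquiv.ext fun w => by
    induction w using QuotientGroup.induction_on with
    | _ w => rw [congr_pow_apply s hmap2, hsN]; rfl
  have hq : ∀ r : ℕ, r.Prime → ∀ x ∈ Cfsg.pCore r ((G ⧸ F) ⧸ F2), (t ^ 2 ^ n) x = x := by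
    intro r hr x hx
    haveI := Fact.mk hr
    haveI := H19.pCore_normal r ((G ⧸ F) ⧸ F2)
    by_cases hr2 : r = 2
    · have hbot : Cfsg.pCore r ((G ⧸ F) ⧸ F2) = ⊥ := by
        obtain ⟨a, ha⟩ := IsPGroup.iff_card.1 (H19.pCore_isPGroup (G := (G ⧸ F) ⧸ F2) r)
        rcases a with _ | a
        · exact Subgroup.card_eq_one.1 (by simpa using ha)
        · exact absurd (hr2 ▸ ((dvd_pow_self r a.succ_ne_zero).trans
            (ha ▸ (Cfsg.pCore r ((G ⧸ F) ⧸ F2)).card_subgroup_dvd_card)).trans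
              F2.card_quotient_dvd_card) hH2
      rw [hbot, Subgroup.mem_bot] at hx
      rw [hx, map_one]
    set L := (Cfsg.pCore r ((G ⧸ F) ⧸ F2)).comap (QuotientGroup.mk' F2) with hL
    have hLs : ∀ a ∈ Subgroup.zpowers s, ∀ v ∈ L, (a : MulAut (G ⧸ F)) v ∈ L := by
      intro a _ v hv
      exact Subgroup.characteristic_iff_map_le.1 (H19.pCore_characteristic r ((G ⧸ F) ⧸ F2))
        (QuotientGroup.congr F2 F2 a
          (Subgroup.characteristic_iff_map_eq.1 (H19.fitting_characteristic (G ⧸ F)) a))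
        ⟨_, hv, rfl⟩
    obtain ⟨S, hS⟩ := exists_invariant_sylow (Subgroup.zpowers s) hA L hLs
      (fun h => hH2 (h.trans L.card_subgroup_dvd_card)) r
    set Qm := (S : Subgroup L).map L.subtype with hQm
    obtain ⟨y, hyQ, rfl⟩ : ∃ y ∈ Qm, (y : (G ⧸ F) ⧸ F2) = x := by
      let f : L →* Cfsg.pCore r ((G ⧸ F) ⧸ F2) :=
        (QuotientGroup.mk' F2).subgroupComap (Cfsg.pCore r ((G ⧸ F) ⧸ F2))
      have hf : Function.Surjective f := by
        rintro ⟨u, hu⟩
        obtain ⟨g, rfl⟩ := QuotientGroup.mk'_surjective F2 u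
        exact ⟨⟨g, hu⟩, rfl⟩
      have htop : (S : Subgroup L).map f = ⊤ := by
        have hidx : ((S : Subgroup L).map f).index ∣ (S : Subgroup L).index :=
          Subgroup.index_map_dvd _ hf
        have hnd : ¬ r ∣ ((S : Subgroup L).map f).index := fun h => S.not_dvd_index (h.trans hidx)
        obtain ⟨k, hk⟩ := (H19.pCore_isPGroup (G := (G ⧸ F) ⧸ F2) r).index ((S : Subgroup L).map f)
        rw [← Subgroup.index_eq_one]
        rcases k with _ | k
        · simpa using hk
        · exact absurd (hk ▸ dvd_pow_self r (Nat.succ_ne_zero k)) hnd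
      have hx' : (⟨x, hx⟩ : Cfsg.pCore r ((G ⧸ F) ⧸ F2)) ∈ (S : Subgroup L).map f := by
        rw [htop]; trivial
      obtain ⟨v, hv, hve⟩ := hx'
      exact ⟨v, ⟨v, hv, rfl⟩, congrArg Subtype.val hve⟩
    rw [congr_pow_apply s hmap2, eq_comm, QuotientGroup.eq]
    have hmem : ∀ i, (s ^ i) y ∈ Qm := fun i =>
      hS _ (pow_mem (Subgroup.mem_zpowers s) _) y hyQ
    set z := y⁻¹ * (s ^ 2 ^ n) y with hzdef
    have hzQ : z ∈ Qm := mul_mem (inv_mem hyQ) (hmem _)
    have hzinv : (s ^ 2 ^ n) z = z⁻¹ := by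
      rw [hzdef, map_mul, map_inv, ← MulAut.mul_apply, ← pow_add, ← two_mul, ← pow_succ', hsN,
        MulAut.one_apply, mul_inv_rev, inv_inv]
    refine mem_fitting_of_mem_comap_pCore r z ((Subgroup.map_subtype_le _) hzQ) fun q hq hqr => ?_
    haveI := Fact.mk hq
    refine centralize_pCore_quotient (n := n) (r := r) hr2 (Ne.symm hqr) σ hσ hfpf hmap z hzinv
      (IsPGroup.to_le (S.isPGroup'.map L.subtype) ?_)
    rw [Subgroup.closure_le]
    rintro _ ⟨i, rfl⟩
    exact hS _ (pow_mem (Subgroup.mem_zpowers s) _) z hzQ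
  set τ := t ^ 2 ^ n with hτ
  set F3 := Cfsg.fittingSubgroup ((G ⧸ F) ⧸ F2) with hF3
  have hτF : ∀ x ∈ F3, τ x = x := by
    intro x hx
    have hle : F3 ≤ MonoidHom.eqLocus (τ : _ ≃* (G ⧸ F) ⧸ F2).toMonoidHom (MonoidHom.id _) := by
      rw [hF3, H19.fitting_eq_iSup_pCore]
      exact iSup_le fun q x hx => hq q q.2 x hx
    exact hle hx
  have hmove : ∀ w, w⁻¹ * τ w ∈ F3 := by
    intro w
    apply H19.centralizer_fitting_le
    rw [Subgroup.mem_centralizer_iff]
    intro f hf
    have h1 := hτF _ ((H19.fitting_normal ((G ⧸ F) ⧸ F2)).conj_mem f hf w)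
    rw [map_mul, map_mul, hτF f hf, map_inv] at h1
    calc f * (w⁻¹ * τ w) = w⁻¹ * (w * f * w⁻¹) * τ w := by group
      _ = w⁻¹ * (τ w * f * (τ w)⁻¹) * τ w := by rw [h1]
      _ = w⁻¹ * τ w * f := by group
  suffices hh : τ (h : (G ⧸ F) ⧸ F2) = (h : (G ⧸ F) ⧸ F2) by
    rw [hτ, congr_pow_apply s hmap2, eq_comm, QuotientGroup.eq] at hh
    exact hh
  set z := (h : (G ⧸ F) ⧸ F2)⁻¹ * τ h with hz
  have hzfix : τ z = z := hτF _ (hmove _)
  have hττ : ∀ w, τ (τ w) = w := fun w => by
    rw [hτ, ← MulAut.mul_apply, ← pow_add, ← two_mul, ← pow_succ', htN, MulAut.one_apply]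
  have hzp : z ^ 2 = 1 := by
    have h1 : τ (τ (h : (G ⧸ F) ⧸ F2)) = (h : (G ⧸ F) ⧸ F2) * z * z := by
      conv_lhs => rw [show τ (h : (G ⧸ F) ⧸ F2) = (h : (G ⧸ F) ⧸ F2) * z by
        rw [hz, mul_inv_cancel_left]]
      rw [map_mul, hzfix, show τ (h : (G ⧸ F) ⧸ F2) = (h : (G ⧸ F) ⧸ F2) * z by
        rw [hz, mul_inv_cancel_left]]
    rw [hττ, mul_assoc] at h1
    rw [sq]
    exact mul_eq_left.1 h1.symm
  have hcop : (Nat.card ((G ⧸ F) ⧸ F2)).Coprime 2 :=
    ((Nat.prime_two.coprime_iff_not_dvd).2 (fun h => hH2 (h.trans F2.card_quotient_dvd_card))).symm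
  exact (inv_mul_eq_one.1 (H21.eq_one_of_pow_eq_one hcop hzp)).symm

/-- A chain with nilpotent factors, from one of the quotient by the Fitting subgroup. -/
theorem lift_chain {G : Type*} [Group G] [Finite G] [(Cfsg.fittingSubgroup G).Normal] {l : ℕ}
    (H : ℕ → Subgroup (G ⧸ Cfsg.fittingSubgroup G)) (h0 : H 0 = ⊥) (hn : H l = ⊤) (hm : Monotone H)
    (hN : ∀ i, (H i).Normal)
    (hnil : ∀ i, i < l → ∃ k : ℕ, (H (i + 1)).lowerCentralSeries k ≤ H i) :
    ∃ F : ℕ → Subgroup G, F 0 = ⊥ ∧ F (l + 1) = ⊤ ∧ Monotone F ∧ (∀ i, (F i).Normal) ∧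
      ∀ i, i < l + 1 → ∃ k : ℕ, (F (i + 1)).lowerCentralSeries k ≤ F i := by
  set N := Cfsg.fittingSubgroup G with hNdef
  refine ⟨fun i => match i with
    | 0 => ⊥
    | i + 1 => (H i).comap (QuotientGroup.mk' N), rfl, ?_, ?_, ?_, ?_⟩
  · show (H l).comap _ = ⊤
    rw [hn, Subgroup.comap_top]
  · refine monotone_nat_of_le_succ fun i => ?_
    cases i with
    | zero => exact bot_le
    | succ i => exact Subgroup.comap_mono (hm (Nat.le_succ i))
  · intro i
    cases i with
    | zero => exact inferInstanceAs (⊥ : Subgroup G).Normal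
    | succ i => exact (hN i).comap _
  · intro i hi
    cases i with
    | zero =>
      obtain ⟨k, hk⟩ := (Subgroup.isNilpotent_iff_lowerCentralSeries (S := N)).1
        H19.fitting_isNilpotent
      refine ⟨k, ?_⟩
      show ((H 0).comap (QuotientGroup.mk' N)).lowerCentralSeries k ≤ ⊥
      rw [h0, MonoidHom.comap_bot, QuotientGroup.ker_mk', hk]
    | succ i =>
      obtain ⟨k, hk⟩ := hnil i (by omega)
      refine ⟨k, ?_⟩
      show ((H (i + 1)).comap (QuotientGroup.mk' N)).lowerCentralSeries k ≤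
        (H i).comap (QuotientGroup.mk' N)
      rw [← Subgroup.map_le_iff_le_comap, Subgroup.map_lowerCentralSeries,
        Subgroup.map_comap_eq_self_of_surjective (QuotientGroup.mk'_surjective N)]
      exact hk

/-- Gross's chain. -/
theorem exists_chain_two : ∀ (m : ℕ) (G : Type*) [Group G] [Finite G] [Group.IsSolvable G]
    (σ : MulAut G), σ ^ 2 ^ (m + 2) = 1 → (∀ g, σ g = g → g = 1) →
    ∃ F : ℕ → Subgroup G, F 0 = ⊥ ∧ F (2 * m + 2) = ⊤ ∧ Monotone F ∧ (∀ i, (F i).Normal) ∧
      ∀ i, i < 2 * m + 2 → ∃ k : ℕ, (F (i + 1)).lowerCentralSeries k ≤ F i := by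
  intro m
  induction m with
  | zero =>
    intro G _ _ hG σ hσ hfpf
    haveI := H19.fitting_normal G
    have hder : commutator G ≤ Cfsg.fittingSubgroup G :=
      H19.le_fitting inferInstance (S3794.result hG σ (by simpa using hσ) hfpf)
    refine lift_chain (l := 1) (fun i => if i = 0 then ⊥ else ⊤) (by simp) (by simp) ?_ ?_ ?_
    · refine monotone_nat_of_le_succ fun i => ?_
      cases i <;> simp
    · intro i
      rcases Nat.eq_zero_or_pos i with rfl | h
      · simp only [if_pos]; exact inferInstance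
      · simp only [h.ne', if_false]; exact inferInstance
    · intro i hi
      obtain rfl : i = 0 := by omega
      refine ⟨1, ?_⟩
      simp only [Nat.succ_ne_zero, if_false, if_true]
      rw [Subgroup.top_lowerCentralSeries_one]
      intro w hw
      rw [commutator_def] at hw
      have : w ∈ (commutator G).map (QuotientGroup.mk' (Cfsg.fittingSubgroup G)) := by
        rw [commutator_def, Subgroup.map_commutator, Subgroup.map_top_of_surjective _
          (QuotientGroup.mk'_surjective _)]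
        exact hw
      obtain ⟨g, hg, rfl⟩ := this
      exact (Subgroup.mem_bot).2 ((QuotientGroup.eq_one_iff g).2 (hder hg))
  | succ m ih =>
    intro G _ _ _ σ hσ hfpf
    haveI := H19.fitting_normal G
    set F := Cfsg.fittingSubgroup G with hF
    have hmap := Subgroup.characteristic_iff_map_eq.1 (H19.fitting_characteristic G) σ
    set s : MulAut (G ⧸ F) := QuotientGroup.congr F F σ hmap with hs
    have hsfpf : ∀ w, s w = w → w = 1 := by
      intro w
      induction w using QuotientGroup.induction_on with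
      | _ g =>
        intro hg
        rw [QuotientGroup.eq_one_iff]
        exact mem_of_fixed_coset σ hfpf F (fun v hv => hmap.le ⟨v, hv, rfl⟩) g
          (QuotientGroup.eq.1 hg.symm)
    haveI := H19.fitting_normal (G ⧸ F)
    set F2 := Cfsg.fittingSubgroup (G ⧸ F) with hF2
    have hmap2 := Subgroup.characteristic_iff_map_eq.1 (H19.fitting_characteristic (G ⧸ F)) s
    obtain ⟨K, hK0, hKn, hKm, hKN, hKnil⟩ := ih ((G ⧸ F) ⧸ F2) (QuotientGroup.congr F2 F2 s hmap2)
      (MulEquiv.ext fun x => by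
        induction x using QuotientGroup.induction_on with
        | _ g =>
          rw [congr_pow_apply s hmap2, MulAut.one_apply, eq_comm, QuotientGroup.eq]
          exact pow_two_trivial (n := m + 2) σ hσ hfpf hmap g)
      (fun x => by
        induction x using QuotientGroup.induction_on with
        | _ g =>
          intro h
          rw [QuotientGroup.eq_one_iff]
          exact mem_of_fixed_coset s hsfpf F2 (fun v hv => hmap2.le ⟨v, hv, rfl⟩) g
            (QuotientGroup.eq.1 h.symm))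
    obtain ⟨J, hJ0, hJn, hJm, hJN, hJnil⟩ := lift_chain K hK0 hKn hKm hKN hKnil
    exact lift_chain J hJ0 hJn hJm hJN hJnil

end Cfsg.Agent.H84.Shult
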